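import Mathlib
import Cfsg.Prelude.Def_OddOrderLocal
import Cfsg.Prelude.Def_HallClasses

/-!
# Hall subgroups of symmetric and alternating groups: shared definitions

`OneP π n`: at most one prime `≤ n` lies in `π`.  `AllP π n`: every prime `≤ n` lies in `π`.
`Cls π n`: the arithmetic conclusion of the theorem of P. Hall and Thompson on the Hall subgroups of
`S_n`.
-/

set_option autoImplicit false

namespace Cfsg.Agent.Lib.HallSym

/-- at most one prime `≤ n` lies in `π` -/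
def OneP (π : Set ℕ) (n : ℕ) : Prop :=
  ∀ r s : ℕ, r.Prime → s.Prime → r ∈ π → s ∈ π → r ≤ n → s ≤ n → r = s

/-- every prime `≤ n` lies in `π` -/
def AllP (π : Set ℕ) (n : ℕ) : Prop :=
  ∀ r : ℕ, r.Prime → r ≤ n → r ∈ π

/-- `n` is prime and the primes of `π` up to `n` are exactly the primes below `n` -/
def PrimeCase (π : Set ℕ) (n : ℕ) : Prop :=
  n.Prime ∧ ∀ r : ℕ, r.Prime → r ≤ n → (r ∈ π ↔ r < n)

/-- the primes of `π` up to `n` are exactly `2` and `3` -/
def TwoThree (π : Set ℕ) (n : ℕ) : Prop :=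
  ∀ r : ℕ, r.Prime → r ≤ n → (r ∈ π ↔ (r = 2 ∨ r = 3))

/-- the arithmetic conclusion of the Hall-Thompson theorem -/
def Cls (π : Set ℕ) (n : ℕ) : Prop :=
  OneP π n ∨ AllP π n ∨ PrimeCase π n ∨ ((n = 7 ∨ n = 8) ∧ TwoThree π n)

end Cfsg.Agent.Lib.HallSym
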