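import Mathlib
import Cfsg.Agent.Lib.HallSym.Defs

/-!
# The arithmetic of Hall subgroups of symmetric groups

`choose_primes_gt`: if `2 ≤ a ≤ b` and every prime divisor of `C(a+b, a)` exceeds `b`, then
`(a, b) = (3, 4)`.  Then the two reduction lemmas `two_block` and `blocks`.
-/

set_option autoImplicit false

namespace Cfsg.Agent.Lib.HallSym

open Nat

/-- A number all of whose prime factors are `≤ b` is coprime to a number all of whose prime factors
exceed `b`. -/
theorem coprime_of_primes {x C b : ℕ} (hx : ∀ p : ℕ, p.Prime → p ∣ x → p ≤ b)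
    (hC : ∀ p : ℕ, p.Prime → p ∣ C → b < p) : Nat.Coprime x C := by
  apply Nat.Coprime.symm
  apply Nat.coprime_of_dvd
  intro p hp hpC hpx
  have h1 := hC p hp hpC
  have h2 := hx p hp hpx
  omega

/-- prime factors of a composite number `x ≤ 2 b` are at most `b` -/
theorem prime_factor_le_of_not_prime {x b : ℕ} (hx : ¬ x.Prime) (hx0 : 0 < x) (hb : x ≤ 2 * b) :
    ∀ p : ℕ, p.Prime → p ∣ x → p ≤ b := by
  intro p hp hpx
  obtain ⟨k, rfl⟩ := hpx
  have hk0 : 0 < k := Nat.pos_of_ne_zero (by rintro rfl; simp at hx0)
  by_cases hk1 : k = 1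
  · subst hk1
    simp at hx
    exact absurd hp hx
  · have hk2 : 2 ≤ k := by omega
    have : p * 2 ≤ p * k := Nat.mul_le_mul_left p hk2
    omega

theorem choose_primes_gt {a b : ℕ} (ha : 2 ≤ a) (hab : a ≤ b)
    (hC : ∀ p : ℕ, p.Prime → p ∣ (a + b).choose a → b < p) : a = 3 ∧ b = 4 := by
  set n := a + b with hn
  set C := n.choose a with hCdef
  have hb2 : 2 ≤ b := by omega
  -- step 1 : a < b
  have hlt : a < b := by
    rcases Nat.lt_or_ge a b with h | h
    · exact h
    · have hab' : a = b := by omega
      subst hab'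
      have h2 : 2 ∣ C := by
        have h3 := Nat.two_dvd_centralBinom_of_one_le (n := a) (by omega)
        rw [Nat.centralBinom_eq_two_mul_choose, two_mul] at h3
        exact h3
      have := hC 2 Nat.prime_two h2
      omega
  have hb3 : 3 ≤ b := by omega
  have hnab : n - a = b := by omega
  -- identities
  have e1 : C * a = n.choose (a - 1) * (b + 1) := by
    have := Nat.choose_succ_right_eq n (a - 1)
    have h1 : a - 1 + 1 = a := by omega
    rw [h1] at this
    rw [this]
    congr 2
    omega
  have e1' : n.choose (a - 1) * (a - 1) = n.choose (a - 2) * (b + 2) := by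
    have := Nat.choose_succ_right_eq n (a - 2)
    have h1 : a - 2 + 1 = a - 1 := by omega
    rw [h1] at this
    rw [this]
    congr 2
    omega
  have e2 : n * (n - 1).choose (a - 1) = C * a := by
    have := Nat.add_one_mul_choose_eq (n - 1) (a - 1)
    have h1 : n - 1 + 1 = n := by omega
    have h2 : a - 1 + 1 = a := by omega
    rw [h1, h2] at this
    exact this
  have e2' : (n - 1) * (n - 2).choose (a - 2) = (n - 1).choose (a - 1) * (a - 1) := by
    have := Nat.add_one_mul_choose_eq (n - 2) (a - 2)
    have h1 : n - 2 + 1 = n - 1 := by omega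
    have h2 : a - 2 + 1 = a - 1 := by omega
    rw [h1, h2] at this
    exact this
  have e3 : n.choose (a + 1) * (a + 1) = C * b := by
    have := Nat.choose_succ_right_eq n a
    rw [hnab] at this
    exact this
  have hCpos : 0 < C := Nat.choose_pos (by omega)
  -- b + 1 is prime
  have hb1p : (b + 1).Prime := by
    by_contra hnp
    have hcop : Nat.Coprime (b + 1) C :=
      coprime_of_primes (prime_factor_le_of_not_prime hnp (by omega) (by omega)) hC
    have hd : (b + 1) ∣ C * a := ⟨n.choose (a - 1), by rw [e1]; ring⟩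
    have := Nat.le_of_dvd (by omega) (hcop.dvd_of_dvd_mul_left hd)
    omega
  -- n is prime
  have hnp : n.Prime := by
    by_contra hnp
    have hcop : Nat.Coprime n C :=
      coprime_of_primes (prime_factor_le_of_not_prime hnp (by omega) (by omega)) hC
    have hd : n ∣ C * a := ⟨(n - 1).choose (a - 1), e2.symm⟩
    have := Nat.le_of_dvd (by omega) (hcop.dvd_of_dvd_mul_left hd)
    omega
  -- (a + 1) ∣ b
  have hab1 : (a + 1) ∣ b := by
    have hcop : Nat.Coprime (a + 1) C := by
      apply coprime_of_primes _ hC
      intro p _ hpx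
      have := Nat.le_of_dvd (by omega) hpx
      omega
    have hd : (a + 1) ∣ C * b := ⟨n.choose (a + 1), by rw [← e3]; ring⟩
    exact hcop.dvd_of_dvd_mul_left hd
  -- parity
  have hbodd : Odd (b + 1) := hb1p.odd_of_ne_two (by omega)
  have hnodd : Odd n := hnp.odd_of_ne_two (by omega)
  have hxne : ¬ (b + 2).Prime := by
    intro hp
    have := hp.eq_two_or_odd'
    rcases this with h | h
    · omega
    · obtain ⟨k, hk⟩ := hbodd
      obtain ⟨l, hl⟩ := h
      omega
  have hyne : ¬ (n - 1).Prime := by
    intro hp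
    rcases hp.eq_two_or_odd' with h | h
    · omega
    · obtain ⟨k, hk⟩ := hnodd
      obtain ⟨l, hl⟩ := h
      omega
  -- (b+2) ∣ a (a-1)
  have hx : (b + 2) ∣ a * (a - 1) := by
    have hcop : Nat.Coprime (b + 2) C :=
      coprime_of_primes (prime_factor_le_of_not_prime hxne (by omega) (by omega)) hC
    have hd : (b + 2) ∣ C * (a * (a - 1)) := by
      refine ⟨n.choose (a - 2) * (b + 1), ?_⟩
      calc C * (a * (a - 1)) = (C * a) * (a - 1) := by ring
        _ = n.choose (a - 1) * (b + 1) * (a - 1) := by rw [e1]
        _ = (n.choose (a - 1) * (a - 1)) * (b + 1) := by ring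
        _ = n.choose (a - 2) * (b + 2) * (b + 1) := by rw [e1']
        _ = (b + 2) * (n.choose (a - 2) * (b + 1)) := by ring
    exact hcop.dvd_of_dvd_mul_left hd
  -- (n-1) ∣ a (a-1)
  have hy : (n - 1) ∣ a * (a - 1) := by
    have hcop : Nat.Coprime (n - 1) C :=
      coprime_of_primes (prime_factor_le_of_not_prime hyne (by omega) (by omega)) hC
    have hd : (n - 1) ∣ C * (a * (a - 1)) := by
      refine ⟨n * (n - 2).choose (a - 2), ?_⟩
      calc C * (a * (a - 1)) = (C * a) * (a - 1) := by ring
        _ = n * (n - 1).choose (a - 1) * (a - 1) := by rw [e2]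
        _ = n * ((n - 1).choose (a - 1) * (a - 1)) := by ring
        _ = n * ((n - 1) * (n - 2).choose (a - 2)) := by rw [e2']
        _ = (n - 1) * (n * (n - 2).choose (a - 2)) := by ring
    exact hcop.dvd_of_dvd_mul_left hd
  -- small a
  have hapos : 0 < a * (a - 1) := Nat.mul_pos (by omega) (by omega)
  rcases Nat.lt_or_ge a 4 with ha4 | ha4
  · interval_cases a
    · -- a = 2
      have := Nat.le_of_dvd (by norm_num) hx
      omega
    · -- a = 3
      have h6 := Nat.le_of_dvd (by norm_num) hx
      exact ⟨rfl, by omega⟩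
  · exfalso
    obtain ⟨m, hm⟩ := hab1
    have hm0 : m ≠ 0 := by rintro rfl; omega
    obtain ⟨c, hc⟩ : ∃ c, a = c + 4 := ⟨a - 4, by omega⟩
    -- gcd divides 6
    have hg6 : Nat.gcd (b + 2) (n - 1) ∣ 6 := by
      have hg1 : Nat.gcd (b + 2) (n - 1) ∣ (a - 3) := by
        have h1 : Nat.gcd (b + 2) (n - 1) ∣ (n - 1) - (b + 2) :=
          Nat.dvd_sub (Nat.gcd_dvd_right _ _) (Nat.gcd_dvd_left _ _)
        have h2 : (n - 1) - (b + 2) = a - 3 := by omega
        rwa [h2] at h1
      have hg2 : Nat.gcd (b + 2) (n - 1) ∣ a * (a - 1) :=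
        (Nat.gcd_dvd_left _ _).trans hx
      have h3 : a * (a - 1) = (a - 3) * (a + 2) + 6 := by
        subst hc
        have : c + 4 - 1 = c + 3 := by omega
        rw [this]
        have : c + 4 - 3 = c + 1 := by omega
        rw [this]
        ring
      rw [h3] at hg2
      exact (Nat.dvd_add_right (hg1.mul_right _)).mp hg2
    have hlcm : Nat.lcm (b + 2) (n - 1) ∣ a * (a - 1) := Nat.lcm_dvd hx hy
    have hlcm_le := Nat.le_of_dvd hapos hlcm
    have hg_le : Nat.gcd (b + 2) (n - 1) ≤ 6 := Nat.le_of_dvd (by norm_num) hg6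
    have hprod : (b + 2) * (n - 1) ≤ 6 * (a * (a - 1)) := by
      rw [← Nat.gcd_mul_lcm (b + 2) (n - 1)]
      exact Nat.mul_le_mul hg_le hlcm_le
    by_cases hm1 : m = 1
    · subst hm1
      have hb : b = a + 1 := by omega
      subst hb
      -- a + 3 ∣ 12
      have h12 : (a + 1 + 2) ∣ 12 := by
        have h3 : a * (a - 1) = (a + 1 + 2) * (a - 4) + 12 := by
          subst hc
          have : c + 4 - 1 = c + 3 := by omega
          rw [this]
          have : c + 4 - 4 = c := by omega
          rw [this]
          ring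
        rw [h3] at hx
        exact (Nat.dvd_add_right (Nat.dvd_mul_right _ _)).mp hx
      have hle := Nat.le_of_dvd (by norm_num) h12
      have : a = 9 := by
        have hcases : a + 1 + 2 = 12 := by
          have h7 : 7 ≤ a + 1 + 2 := by omega
          interval_cases hh : a + 1 + 2 <;> first | rfl | (exfalso; revert h12; decide)
        omega
      subst this
      have := hC 2 Nat.prime_two (by decide)
      omega
    · have hm2 : 2 ≤ m := by omega
      have hb : 2 * (a + 1) ≤ b := by
        rw [hm]
        nlinarith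
      have hn1 : 3 * a + 1 ≤ n - 1 := by omega
      have h1 : (2 * a + 4) * (3 * a + 1) ≤ (b + 2) * (n - 1) :=
        Nat.mul_le_mul (by omega) hn1
      have h2 : a * (a - 1) ≤ a * a := Nat.mul_le_mul_left a (by omega)
      nlinarith

/-- `(E')`: the variant with `b` prime. -/
theorem choose_primes_ge {a b : ℕ} (ha : 2 ≤ a) (hab : a ≤ b) (hb : b.Prime) (hb3 : 3 ≤ b)
    (hC : ∀ p : ℕ, p.Prime → p ∣ (a + b).choose a → b ≤ p) : False := by
  set n := a + b with hn
  set C := n.choose a with hCdef
  have hnab : n - a = b := by omega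
  have e3 : n.choose (a + 1) * (a + 1) = C * b := by
    have := Nat.choose_succ_right_eq n a
    rw [hnab] at this
    exact this
  have e1 : C * a = n.choose (a - 1) * (b + 1) := by
    have := Nat.choose_succ_right_eq n (a - 1)
    have h1 : a - 1 + 1 = a := by omega
    rw [h1] at this
    rw [this]
    congr 2
    omega
  -- a + 1 ≥ b
  have h1 : b ≤ a + 1 := by
    by_contra hlt
    have hlt : a + 1 < b := by omega
    obtain ⟨p, hp, hpd⟩ := Nat.exists_prime_and_dvd (n := a + 1) (by omega)
    have hple := Nat.le_of_dvd (by omega) hpd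
    have hd : p ∣ C * b := e3 ▸ Dvd.dvd.mul_left hpd _
    rcases (Nat.Prime.dvd_mul hp).mp hd with h | h
    · have := hC p hp h
      omega
    · have := (Nat.prime_dvd_prime_iff_eq hp hb).mp h
      omega
  by_cases hab' : a = b
  · subst hab'
    have h2 : 2 ∣ C := by
      have h3 := Nat.two_dvd_centralBinom_of_one_le (n := a) (by omega)
      rw [Nat.centralBinom_eq_two_mul_choose, two_mul] at h3
      exact h3
    have := hC 2 Nat.prime_two h2
    omega
  · have hab2 : a = b - 1 := by omega
    have hbodd : Odd b := hb.odd_of_ne_two (by omega)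
    have hnp : ¬ (b + 1).Prime := by
      intro hp
      rcases hp.eq_two_or_odd' with h | h
      · omega
      · obtain ⟨k, hk⟩ := hbodd
        obtain ⟨l, hl⟩ := h
        omega
    have hx := prime_factor_le_of_not_prime hnp (by omega) (b := b - 1 + 0) (by omega)
    have hcop : Nat.Coprime (b + 1) C := by
      apply coprime_of_primes (b := b - 1) _ _
      · intro p hp hd
        have h3 : p * 2 ≤ b + 1 := by
          obtain ⟨k, hk⟩ := hd
          have hk0 : k ≠ 0 := by rintro rfl; omega
          have hk1 : k ≠ 1 := by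
            rintro rfl
            rw [mul_one] at hk
            exact hnp (hk ▸ hp)
          have : 2 ≤ k := by omega
          rw [hk]
          exact Nat.mul_le_mul_left p this
        omega
      · intro p hp hd
        have := hC p hp hd
        omega
    have hd : (b + 1) ∣ C * a := ⟨n.choose (a - 1), by rw [e1]; ring⟩
    have := Nat.le_of_dvd (by omega) (hcop.dvd_of_dvd_mul_left hd)
    omega

/-- a prime in `(b, a + b]`, `a ≤ b`, divides `C(a+b, a)`. -/
theorem prime_dvd_choose_of_gt {a b q : ℕ} (hq : q.Prime) (hab : a ≤ b) (h1 : b < q) (h2 : q ≤ a + b) :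
    q ∣ (a + b).choose a := by
  have h := Nat.add_choose_mul_factorial_mul_factorial a b
  have hd : q ∣ (a + b).factorial := (Nat.Prime.dvd_factorial hq).mpr h2
  rw [← h, ← Nat.choose_symm_add] at hd
  rcases (Nat.Prime.dvd_mul hq).mp hd with h3 | h3
  · rcases (Nat.Prime.dvd_mul hq).mp h3 with h4 | h4
    · exact h4
    · exfalso
      have := (Nat.Prime.dvd_factorial hq).mp h4
      omega
  · exfalso
    have := (Nat.Prime.dvd_factorial hq).mp h3
    omega

/-- The reduction for an intransitive Hall subgroup. -/
theorem two_block {π : Set ℕ} {a b : ℕ} (ha : 1 ≤ a) (hab : a ≤ b)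
    (hO : ¬ OneP π (a + b)) (hA : ¬ AllP π (a + b))
    (hC : ∀ q : ℕ, q.Prime → q ∈ π → ¬ q ∣ (a + b).choose a)
    (hcls : Cls π b) :
    (a = 1 ∧ PrimeCase π (a + b)) ∨ (a = 3 ∧ b = 4 ∧ TwoThree π 7) := by
  rcases hcls with h | h | h | ⟨hb, h⟩
  · -- OneP π b
    exfalso
    apply hO
    intro r s hr hs hrπ hsπ hrn hsn
    have hrb : r ≤ b := by
      by_contra hlt
      exact hC r hr hrπ (prime_dvd_choose_of_gt hr hab (by omega) hrn)
    have hsb : s ≤ b := by
      by_contra hlt
      exact hC s hs hsπ (prime_dvd_choose_of_gt hs hab (by omega) hsn)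
    exact h r s hr hs hrπ hsπ hrb hsb
  · -- AllP π b
    have hpr : ∀ p : ℕ, p.Prime → p ∣ (a + b).choose a → b < p := by
      intro p hp hd
      by_contra hle
      exact hC p hp (h p hp (by omega)) hd
    rcases Nat.lt_or_ge a 2 with ha2 | ha2
    · have ha1 : a = 1 := by omega
      subst ha1
      left
      refine ⟨rfl, ?_, ?_⟩
      · -- 1 + b is prime
        rw [Nat.choose_one_right] at hpr hC
        have hb2 : 2 ≤ 1 + b := by
          by_contra hlt
          have hb0 : b = 0 := by omega
          subst hb0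
          omega
        rw [Nat.prime_def_minFac]
        refine ⟨hb2, ?_⟩
        have h1 := hpr _ (Nat.minFac_prime (by omega)) (Nat.minFac_dvd _)
        have h2 := Nat.minFac_le (n := 1 + b) (by omega)
        omega
      · intro r hr hrn
        rw [Nat.choose_one_right] at hC
        constructor
        · intro hrπ
          rcases Nat.lt_or_ge r (1 + b) with h1 | h1
          · exact h1
          · have : r = 1 + b := by omega
            exact absurd (this ▸ dvd_rfl) (hC r hr hrπ)
        · intro hlt
          exact h r hr (by omega)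
    · obtain ⟨h3, h4⟩ := choose_primes_gt ha2 hab hpr
      subst h3
      subst h4
      right
      refine ⟨rfl, rfl, ?_⟩
      intro r hr hrn
      have hC7 : (3 + 4).choose 3 = 35 := by decide
      rw [hC7] at hC
      have hr2 := hr.two_le
      interval_cases r
      · exact iff_of_true (h 2 Nat.prime_two (by norm_num)) (by omega)
      · exact iff_of_true (h 3 (by decide) (by norm_num)) (by omega)
      · exact absurd hr (by decide)
      · exact iff_of_false (fun hπ => hC 5 (by decide) hπ (by decide)) (by omega)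
      · exact absurd hr (by decide)
      · exact iff_of_false (fun hπ => hC 7 (by decide) hπ (by decide)) (by omega)
  · -- PrimeCase π b
    exfalso
    obtain ⟨hb, hr⟩ := h
    have hbπ : b ∉ π := fun hπ => lt_irrefl b ((hr b hb le_rfl).mp hπ)
    by_cases hb2 : b = 2
    · subst hb2
      apply hO
      intro r s hr' hs hrπ hsπ hrn hsn
      have hrne : r ≠ 2 := by rintro rfl; exact hbπ hrπ
      have hsne : s ≠ 2 := by rintro rfl; exact hbπ hsπ
      have h1 : a + 2 ≤ 4 := by omega
      have hr3 : r = 3 := by
        have : r ≤ 4 := by omega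
        interval_cases r <;> first | rfl | (exfalso; revert hr'; decide) | omega
      have hs3 : s = 3 := by
        have : s ≤ 4 := by omega
        interval_cases s <;> first | rfl | (exfalso; revert hs; decide) | omega
      omega
    · have hb3 : 3 ≤ b := by
        have := hb.two_le
        omega
      have hodd : Odd b := hb.odd_of_ne_two hb2
      rcases Nat.lt_or_ge a 2 with ha2 | ha2
      · have ha1 : a = 1 := by omega
        subst ha1
        rw [Nat.choose_one_right] at hC
        have h2π : 2 ∈ π := (hr 2 Nat.prime_two (by omega)).mpr (by omega)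
        apply hC 2 Nat.prime_two h2π
        obtain ⟨k, hk⟩ := hodd
        exact ⟨k + 1, by omega⟩
      · refine choose_primes_ge ha2 hab hb hb3 ?_
        intro p hp hd
        by_contra hlt
        exact hC p hp ((hr p hp (by omega)).mpr (by omega)) hd
  · -- b = 7 or 8
    exfalso
    have h2 : 2 ∈ π := (h 2 Nat.prime_two (by omega)).mpr (by simp)
    have h3 : 3 ∈ π := (h 3 (by decide) (by omega)).mpr (by simp)
    have h2' := hC 2 Nat.prime_two h2
    have h3' := hC 3 (by decide) h3
    rcases hb with rfl | rfl
    · interval_cases a <;> first | (exact h2' (by decide)) | (exact h3' (by decide))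
    · interval_cases a <;> first | (exact h2' (by decide)) | (exact h3' (by decide))

/-- the index of the wreath product `S_d ≀ S_m` in `S_{dm}` -/
def wr (d : ℕ) : ℕ → ℕ
  | 0 => 1
  | m + 1 => wr d m * ((m + 1) * d - 1).choose (d - 1)

theorem wr_mul (d : ℕ) (hd : 1 ≤ d) (m : ℕ) :
    wr d m * d.factorial ^ m * m.factorial = (m * d).factorial := by
  induction m with
  | zero => simp [wr]
  | succ m ih =>
    obtain ⟨e, rfl⟩ : ∃ e, d = e + 1 := ⟨d - 1, by omega⟩
    have h1 : (m + 1) * (e + 1) - 1 = m * (e + 1) + e := by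
      have : (m + 1) * (e + 1) = m * (e + 1) + e + 1 := by ring
      omega
    have h2 : e + 1 - 1 = e := by omega
    have h3 := Nat.add_choose_mul_factorial_mul_factorial (m * (e + 1)) e
    have h4 : (m * (e + 1) + e).choose e = (m * (e + 1) + e).choose (m * (e + 1)) := by
      rw [Nat.choose_symm_add]
    have h5 : ((m + 1) * (e + 1)).factorial =
        ((m + 1) * (e + 1)) * (m * (e + 1) + e).factorial := by
      have : (m + 1) * (e + 1) = (m * (e + 1) + e) + 1 := by ring
      rw [this, Nat.factorial_succ]
    rw [h5, ← h3, ← ih]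
    simp only [wr, h1, h2]
    rw [Nat.factorial_succ e, Nat.factorial_succ m, h4]
    ring

theorem wr_dvd_of_le (d : ℕ) {k m : ℕ} (h : k ≤ m) : wr d k ∣ wr d m := by
  induction m, h using Nat.le_induction with
  | base => exact dvd_rfl
  | succ m _ ih => exact ih.trans ⟨_, rfl⟩

theorem choose_dvd_wr (d : ℕ) {k m : ℕ} (hk : 1 ≤ k) (h : k ≤ m) :
    (k * d - 1).choose (d - 1) ∣ wr d m := by
  obtain ⟨l, rfl⟩ : ∃ l, k = l + 1 := ⟨k - 1, by omega⟩
  exact (Dvd.intro_left _ rfl).trans (wr_dvd_of_le d h)

/-- The reduction for an imprimitive Hall subgroup. -/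
theorem blocks {π : Set ℕ} {d m : ℕ} (hd : 2 ≤ d) (hm : 2 ≤ m)
    (hO : ¬ OneP π (m * d)) (hA : ¬ AllP π (m * d))
    (hW : ∀ q : ℕ, q.Prime → q ∈ π → ¬ q ∣ wr d m)
    (hcls : Cls π d) (hn : ∀ q : ℕ, q.Prime → q ∣ m * d → q ∈ π) :
    d = 4 ∧ m = 2 ∧ TwoThree π 8 := by
  -- step 1
  have h1 : ∀ q : ℕ, q.Prime → q ∈ π → q ≤ m * d → q ≤ d := by
    intro q hq hqπ hqn
    by_contra hlt
    have hlt : d < q := by omega
    apply hW q hq hqπ
    -- a multiple of q in (m, m*d]
    obtain ⟨t, ht1, ht2, ht3⟩ : ∃ t, m < t ∧ t ≤ m * d ∧ q ∣ t := by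
      rcases Nat.lt_or_ge m q with hmq | hmq
      · exact ⟨q, hmq, hqn, dvd_rfl⟩
      · refine ⟨q * (m / q + 1), ?_, ?_, Dvd.intro _ rfl⟩
        · have := Nat.lt_mul_div_succ m hq.pos
          simpa [Nat.succ_eq_add_one] using this
        · have h2 : q * (m / q) ≤ m := Nat.mul_div_le m q
          have h3 : q * (m / q + 1) ≤ m + q := by
            rw [mul_add, mul_one]
            omega
          have h4 : m * 2 ≤ m * d := Nat.mul_le_mul_left m hd
          omega
    have h2 : q * m.factorial ∣ (m * d).factorial := by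
      have h3 : t * m.factorial ∣ t.factorial := by
        obtain ⟨s, rfl⟩ : ∃ s, t = s + 1 := ⟨t - 1, by omega⟩
        rw [Nat.factorial_succ]
        exact Nat.mul_dvd_mul_left _ (Nat.factorial_dvd_factorial (by omega))
      exact (Nat.mul_dvd_mul_right ht3 _).trans (h3.trans (Nat.factorial_dvd_factorial ht2))
    rw [← wr_mul d (by omega) m] at h2
    have h3 : q ∣ wr d m * d.factorial ^ m :=
      Nat.dvd_of_mul_dvd_mul_right (Nat.factorial_pos m) h2
    rcases (Nat.Prime.dvd_mul hq).mp h3 with h4 | h4
    · exact h4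
    · exfalso
      have h5 := hq.dvd_of_dvd_pow h4
      have := (Nat.Prime.dvd_factorial hq).mp h5
      omega
  have hdn : d ≤ m * d := by nlinarith
  -- not OneP at d
  have hOd : ¬ OneP π d := by
    intro h
    apply hO
    intro r s hr hs hrπ hsπ hrn hsn
    exact h r s hr hs hrπ hsπ (h1 r hr hrπ hrn) (h1 s hs hsπ hsn)
  have hfac := choose_dvd_wr d (k := 2) (m := m) (by norm_num) hm
  rcases hcls with h | h | h | ⟨hd', h⟩
  · exact absurd h hOd
  · -- AllP π d
    have hd3 : 3 ≤ d := by
      by_contra hlt
      have hd2 : d = 2 := by omega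
      subst hd2
      apply hOd
      intro r s hr hs _ _ hrn hsn
      have := hr.two_le
      have := hs.two_le
      omega
    have hpr : ∀ p : ℕ, p.Prime → p ∣ ((d - 1) + d).choose (d - 1) → d < p := by
      intro p hp hdvd
      by_contra hle
      apply hW p hp (h p hp (by omega))
      refine dvd_trans hdvd ?_
      have : 2 * d - 1 = d - 1 + d := by omega
      rw [← this]
      exact hfac
    obtain ⟨h3, _⟩ := choose_primes_gt (a := d - 1) (b := d) (by omega) (by omega) hpr
    have hd4 : d = 4 := by omega
    subst hd4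
    have h2π : 2 ∈ π := h 2 Nat.prime_two (by norm_num)
    have h3π : 3 ∈ π := h 3 (by decide) (by norm_num)
    have hm2 : m = 2 := by
      by_contra hne
      have hm3 : 3 ≤ m := by omega
      have hfac3 := choose_dvd_wr 4 (k := 3) (m := m) (by norm_num) hm3
      have : 3 ∣ (3 * 4 - 1).choose (4 - 1) := by decide
      exact hW 3 (by decide) h3π (this.trans hfac3)
    subst hm2
    refine ⟨rfl, rfl, ?_⟩
    intro r hr hrn
    constructor
    · intro hπ
      have := h1 r hr hπ (by omega)
      have hr2 := hr.two_le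
      interval_cases r
      · simp
      · simp
      · exact absurd hr (by decide)
    · rintro (rfl | rfl)
      · exact h2π
      · exact h3π
  · -- PrimeCase π d
    exfalso
    obtain ⟨hd', hr⟩ := h
    have : d ∈ π := hn d hd' (Dvd.intro_left _ rfl)
    exact lt_irrefl d ((hr d hd' le_rfl).mp this)
  · -- d = 7 or 8
    exfalso
    rcases hd' with rfl | rfl
    · have : 7 ∈ π := hn 7 (by decide) (Dvd.intro_left _ rfl)
      have h7 := (h 7 (by decide) le_rfl).mp this
      omega
    · have h3π : 3 ∈ π := (h 3 (by decide) (by norm_num)).mpr (by simp)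
      have : 3 ∣ (2 * 8 - 1).choose (8 - 1) := by decide
      exact hW 3 (by decide) h3π (this.trans hfac)

end Cfsg.Agent.Lib.HallSym
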