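import Mathlib
import Cfsg.Agent.Lib.HallSym.Num

/-!
# Subgroups of `Perm α` permuting the fibres of a function

`wrG f`: permutations permuting the fibres of `f`; `kerG f`: those fixing each fibre.
`Yim K f b`: the group induced on the fibre over `b` by its stabilizer in `K`.
`index_wr_dvd`, `index_ker_dvd`: the index of `K` is divisible by the index of the big group times the
indices of the induced groups.
-/

set_option autoImplicit false
set_option linter.unusedSectionVars false
set_option linter.unusedVariables false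

namespace Cfsg.Agent.Lib.HallSym

open Equiv Equiv.Perm Subgroup
open scoped Nat

variable {α β : Type*} [Fintype α] [DecidableEq α] [Fintype β] [DecidableEq β]

/-- permutations permuting the fibres of `f` -/
def wrG (f : α → β) : Subgroup (Perm α) where
  carrier := {σ | ∃ τ : Perm β, ∀ x, f (σ x) = τ (f x)}
  mul_mem' := by
    rintro a b ⟨τa, ha⟩ ⟨τb, hb⟩
    exact ⟨τa * τb, fun x => by simp [ha, hb]⟩
  one_mem' := ⟨1, fun _ => rfl⟩
  inv_mem' := by
    rintro a ⟨τ, ha⟩
    refine ⟨τ⁻¹, fun x => ?_⟩
    have := ha (a⁻¹ x)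
    rw [show a (a⁻¹ x) = x by simp] at this
    rw [this, show τ⁻¹ (τ (f (a⁻¹ x))) = f (a⁻¹ x) by simp]

/-- permutations fixing each fibre of `f` -/
def kerG (f : α → β) : Subgroup (Perm α) where
  carrier := {σ | ∀ x, f (σ x) = f x}
  mul_mem' := by
    intro a b ha hb x
    rw [Perm.mul_apply, ha, hb]
  one_mem' := fun _ => rfl
  inv_mem' := by
    intro a ha x
    have := ha (a⁻¹ x)
    rw [show a (a⁻¹ x) = x by simp] at this
    exact this.symm

theorem kerG_le_wrG (f : α → β) : kerG f ≤ wrG f := fun σ hσ => ⟨1, fun x => hσ x⟩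

/-- the fibre over `b` -/
abbrev Fib (f : α → β) (b : β) : Type _ := {x // f x = b}

/-- stabilizer of the fibre over `b` -/
def fixF (f : α → β) (b : β) : Subgroup (Perm α) where
  carrier := {σ | ∀ x, f (σ x) = b ↔ f x = b}
  mul_mem' := by
    intro a c ha hc x
    rw [Perm.mul_apply, ha, hc]
  one_mem' := fun _ => Iff.rfl
  inv_mem' := by
    intro a ha x
    have := ha (a⁻¹ x)
    rw [show a (a⁻¹ x) = x by simp] at this
    exact this.symm

theorem kerG_le_fixF (f : α → β) (b : β) : kerG f ≤ fixF f b := by
  intro σ hσ x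
  rw [hσ x]

/-- restriction to a fibre -/
def res (f : α → β) (b : β) : fixF f b →* Perm (Fib f b) where
  toFun σ := (σ : Perm α).subtypePerm (fun x => σ.2 x)
  map_one' := by ext; simp
  map_mul' := by
    intro a c
    ext x
    rfl

@[simp] theorem res_apply (f : α → β) (b : β) (σ : fixF f b) (x : Fib f b) :
    ((res f b σ x : Fib f b) : α) = (σ : Perm α) x := rfl

/-- the group induced on the fibre over `b` -/
def Yim (K : Subgroup (Perm α)) (f : α → β) (b : β) : Subgroup (Perm (Fib f b)) :=
  (K.subgroupOf (fixF f b)).map (res f b)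

theorem card_Yim_dvd_card (K : Subgroup (Perm α)) (f : α → β) (b : β) :
    Nat.card (Yim K f b) ∣ Nat.card K := by
  have h1 : Nat.card (Yim K f b) ∣ Nat.card (K.subgroupOf (fixF f b)) :=
    Subgroup.card_map_dvd _ _
  have h2 : Nat.card (K.subgroupOf (fixF f b)) ∣ Nat.card K := by
    let g : K.subgroupOf (fixF f b) →* K :=
      { toFun := fun x => ⟨x.1.1, Subgroup.mem_subgroupOf.mp x.2⟩
        map_one' := rfl
        map_mul' := fun _ _ => rfl }
    apply Subgroup.card_dvd_of_injective g
    intro x y h
    apply Subtype.ext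
    apply Subtype.ext
    exact congrArg (fun z : K => (z : Perm α)) h
  exact h1.trans h2

theorem Yim_mono {K L : Subgroup (Perm α)} (h : K ≤ L) (f : α → β) (b : β) : Yim K f b ≤ Yim L f b := by
  apply Subgroup.map_mono
  intro x hx
  rw [Subgroup.mem_subgroupOf] at hx ⊢
  exact h hx

/-- the count over the kernel -/
theorem card_dvd_of_le_ker {K : Subgroup (Perm α)} {f : α → β} (hK : K ≤ kerG f) :
    Nat.card K ∣ ∏ b, Nat.card (Yim K f b) := by
  let ph : K →* (∀ b, Yim K f b) :=
    { toFun := fun k b =>
        ⟨res f b ⟨k, kerG_le_fixF f b (hK k.2)⟩,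
          Subgroup.mem_map.mpr ⟨⟨k, kerG_le_fixF f b (hK k.2)⟩, by
            simp [Subgroup.mem_subgroupOf], rfl⟩⟩
      map_one' := by
        funext b
        apply Subtype.ext
        ext x
        simp
      map_mul' := by
        intro a c
        funext b
        apply Subtype.ext
        ext x
        simp }
  have hph : Function.Injective ph := by
    intro a c h
    apply Subtype.ext
    ext x
    have h1 := congrFun h (f x)
    have h2 := congrArg (fun y : Yim K f (f x) => ((y : Perm (Fib f (f x))) ⟨x, rfl⟩ : α)) h1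
    simpa [ph] using h2
  have := Subgroup.card_dvd_of_injective ph hph
  rwa [Nat.card_pi] at this

/-- the permutation of `β` induced by an element of `wrG f`, `f` surjective -/
noncomputable def topF {f : α → β} (hf : Function.Surjective f) : wrG f →* Perm β where
  toFun σ := Classical.choose σ.2
  map_one' := by
    ext b
    obtain ⟨x, rfl⟩ := hf b
    have := Classical.choose_spec (wrG f).one_mem x
    simpa using this.symm
  map_mul' := by
    intro a c
    ext b
    obtain ⟨x, rfl⟩ := hf b
    have h1 := Classical.choose_spec (a * c).2 x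
    have h2 := Classical.choose_spec a.2 ((c : Perm α) x)
    have h3 := Classical.choose_spec c.2 x
    rw [Perm.mul_apply]
    change Classical.choose (a * c).2 (f x) = Classical.choose a.2 (Classical.choose c.2 (f x))
    rw [← h3, ← h2, ← h1]
    rfl

theorem topF_spec {f : α → β} (hf : Function.Surjective f) (σ : wrG f) (x : α) :
    f ((σ : Perm α) x) = topF hf σ (f x) := Classical.choose_spec σ.2 x

/-- the count over `wrG`. -/
theorem card_dvd_of_le_wr {K : Subgroup (Perm α)} {f : α → β} (hf : Function.Surjective f)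
    (hK : K ≤ wrG f) :
    Nat.card K ∣ (∏ b, Nat.card (Yim K f b)) * (Fintype.card β)! := by
  let ph : K →* Perm β := (topF hf).comp (Subgroup.inclusion hK)
  have h1 : Nat.card K = Nat.card ph.ker * Nat.card ph.range := by
    have := Subgroup.card_mul_index ph.ker
    rw [Subgroup.index_ker] at this
    exact this.symm
  have h2 : Nat.card ph.range ∣ (Fintype.card β)! := by
    have := Subgroup.card_subgroup_dvd_card ph.range
    rwa [Nat.card_perm, Nat.card_eq_fintype_card (α := β)] at this
  -- the kernel
  have h3 : Nat.card ph.ker ∣ Nat.card (K ⊓ kerG f : Subgroup (Perm α)) := by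
    let ps : ph.ker →* (K ⊓ kerG f : Subgroup (Perm α)) :=
      { toFun := fun k => ⟨((k : K) : Perm α), k.1.2, by
          intro x
          have hk : ph k.1 = 1 := k.2
          have := topF_spec hf (Subgroup.inclusion hK k.1) x
          have h' : topF hf (Subgroup.inclusion hK k.1) = 1 := hk
          rw [h'] at this
          simpa using this⟩
        map_one' := rfl
        map_mul' := fun _ _ => rfl }
    apply Subgroup.card_dvd_of_injective ps
    intro a c h
    apply Subtype.ext
    apply Subtype.ext
    exact congrArg (fun y : (K ⊓ kerG f : Subgroup (Perm α)) => (y : Perm α)) h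
  have h4 : Nat.card (K ⊓ kerG f : Subgroup (Perm α)) ∣ ∏ b, Nat.card (Yim K f b) := by
    refine (card_dvd_of_le_ker inf_le_right).trans ?_
    apply Finset.prod_dvd_prod_of_dvd
    intro b _
    exact Subgroup.card_dvd_of_le (Yim_mono inf_le_left f b)
  rw [h1]
  exact Nat.mul_dvd_mul (h3.trans h4) h2

theorem card_fib (f : α → β) (b : β) : Nat.card (Perm (Fib f b)) = (Fintype.card (Fib f b))! := by
  rw [Nat.card_perm, Nat.card_eq_fintype_card]

theorem card_mul_index_Yim (K : Subgroup (Perm α)) (f : α → β) (b : β) :
    Nat.card (Yim K f b) * (Yim K f b).index = (Fintype.card (Fib f b))! := by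
  rw [Subgroup.card_mul_index, card_fib]

/-- divisibility of the index, `wrG` version -/
theorem index_wr_dvd {K : Subgroup (Perm α)} {f : α → β} (hf : Function.Surjective f)
    (hK : K ≤ wrG f) {w : ℕ}
    (hw : w * ((∏ b, (Fintype.card (Fib f b))!) * (Fintype.card β)!) = (Fintype.card α)!) :
    w * (∏ b, (Yim K f b).index) ∣ K.index := by
  obtain ⟨e, he⟩ := card_dvd_of_le_wr hf hK
  have h1 : Nat.card K * K.index = (Fintype.card α)! := by
    rw [Subgroup.card_mul_index, Nat.card_perm, Nat.card_eq_fintype_card]
  have h2 : ∏ b, (Fintype.card (Fib f b))! =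
      (∏ b, Nat.card (Yim K f b)) * ∏ b, (Yim K f b).index := by
    rw [← Finset.prod_mul_distrib]
    exact Finset.prod_congr rfl fun b _ => (card_mul_index_Yim K f b).symm
  have hpos : 0 < Nat.card K := Nat.card_pos
  refine ⟨e, ?_⟩
  apply Nat.eq_of_mul_eq_mul_left hpos
  rw [h1, ← hw, h2]
  calc w * (((∏ b, Nat.card (Yim K f b)) * ∏ b, (Yim K f b).index) * (Fintype.card β)!)
      = ((∏ b, Nat.card (Yim K f b)) * (Fintype.card β)!) * (w * ∏ b, (Yim K f b).index) := by ring
    _ = Nat.card K * e * (w * ∏ b, (Yim K f b).index) := by rw [he]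
    _ = Nat.card K * ((w * ∏ b, (Yim K f b).index) * e) := by ring

/-- divisibility of the index, `kerG` version -/
theorem index_ker_dvd {K : Subgroup (Perm α)} {f : α → β} (hK : K ≤ kerG f) {w : ℕ}
    (hw : w * (∏ b, (Fintype.card (Fib f b))!) = (Fintype.card α)!) :
    w * (∏ b, (Yim K f b).index) ∣ K.index := by
  obtain ⟨e, he⟩ := card_dvd_of_le_ker hK
  have h1 : Nat.card K * K.index = (Fintype.card α)! := by
    rw [Subgroup.card_mul_index, Nat.card_perm, Nat.card_eq_fintype_card]
  have h2 : ∏ b, (Fintype.card (Fib f b))! =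
      (∏ b, Nat.card (Yim K f b)) * ∏ b, (Yim K f b).index := by
    rw [← Finset.prod_mul_distrib]
    exact Finset.prod_congr rfl fun b _ => (card_mul_index_Yim K f b).symm
  have hpos : 0 < Nat.card K := Nat.card_pos
  refine ⟨e, ?_⟩
  apply Nat.eq_of_mul_eq_mul_left hpos
  rw [h1, ← hw, h2]
  calc w * ((∏ b, Nat.card (Yim K f b)) * ∏ b, (Yim K f b).index)
      = (∏ b, Nat.card (Yim K f b)) * (w * ∏ b, (Yim K f b).index) := by ring
    _ = Nat.card K * e * (w * ∏ b, (Yim K f b).index) := by rw [he]
    _ = Nat.card K * ((w * ∏ b, (Yim K f b).index) * e) := by ring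

end Cfsg.Agent.Lib.HallSym
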