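import Mathlib
import Cfsg.Agent.Lib.HallSym.Frame

/-!
# Reductions for intransitive and imprimitive groups
-/

set_option autoImplicit false
set_option linter.unusedSectionVars false
set_option linter.unusedVariables false

namespace Cfsg.Agent.Lib.HallSym

open Equiv Equiv.Perm Subgroup MulAction
open scoped Nat Pointwise

universe u

variable {α : Type u} [Fintype α] [DecidableEq α]

/-- An intransitive group preserves a function to `Bool`, with both fibres nonempty. -/
theorem exists_bool_of_not_trans (H : Subgroup (Perm α)) (h : ¬ IsPretransitive H α) :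
    ∃ s : α → Bool, H ≤ kerG s ∧ (∃ x, s x = true) ∧ ∃ y, s y = false := by
  classical
  have : ∃ x y : α, ∀ g ∈ H, g x ≠ y := by
    by_contra hcon
    push_neg at hcon
    apply h
    refine ⟨fun x y => ?_⟩
    obtain ⟨g, hg, hgx⟩ := hcon x y
    exact ⟨⟨g, hg⟩, hgx⟩
  obtain ⟨x, y, hxy⟩ := this
  refine ⟨fun z => decide (∃ g ∈ H, g x = z), ?_, ⟨x, ?_⟩, ⟨y, ?_⟩⟩
  · intro g hg z
    apply Bool.eq_iff_iff.mpr
    simp only [decide_eq_true_eq]
    constructor
    · rintro ⟨k, hk, hkz⟩
      refine ⟨g⁻¹ * k, H.mul_mem (H.inv_mem hg) hk, ?_⟩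
      rw [Perm.mul_apply, hkz]
      simp
    · rintro ⟨k, hk, hkz⟩
      exact ⟨g * k, H.mul_mem hg hk, by rw [Perm.mul_apply, hkz]⟩
  · simp only [decide_eq_true_eq]
    exact ⟨1, H.one_mem, rfl⟩
  · simp only [decide_eq_false_iff_not, not_exists, not_and]
    exact fun g hg => hxy g hg

/-- A transitive group which is not primitive permutes the fibres of a surjection with constant
fibre size. -/
theorem exists_fibers_of_not_prim (H : Subgroup (Perm α)) [ht : IsPretransitive H α]
    (h : ¬ IsPreprimitive H α) :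
    ∃ (β : Type u) (_ : Fintype β) (_ : DecidableEq β) (f : α → β) (d m : ℕ),
      Function.Surjective f ∧ 2 ≤ d ∧ 2 ≤ m ∧ Fintype.card β = m ∧
        (∀ b, Fintype.card (Fib f b) = d) ∧ H ≤ wrG f ∧ Fintype.card α = m * d := by
  classical
  have : ∃ B : Set α, IsBlock H B ∧ ¬ B.Subsingleton ∧ B ≠ Set.univ := by
    by_contra hcon
    push_neg at hcon
    apply h
    refine ⟨fun {B} hB => ?_⟩
    by_cases hs : B.Subsingleton
    · exact Or.inl hs
    · exact Or.inr (hcon B hB (Set.not_subsingleton_iff.mp hs))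
  obtain ⟨B, hB, hs, hu⟩ := this
  obtain ⟨x₀, hx₀⟩ : B.Nonempty := by
    rw [Set.not_subsingleton_iff] at hs
    exact hs.nonempty
  let β : Type u := {C : Set α // ∃ g : H, C = g • B}
  have hex : ∀ x : α, ∃ C : β, x ∈ C.1 := by
    intro x
    obtain ⟨g, hg⟩ := exists_smul_eq H x₀ x
    exact ⟨⟨g • B, g, rfl⟩, hg ▸ Set.smul_mem_smul_set hx₀⟩
  have huniq : ∀ (x : α) (C D : β), x ∈ C.1 → x ∈ D.1 → C = D := by
    rintro x ⟨C, g, rfl⟩ ⟨D, k, rfl⟩ hC hD
    apply Subtype.ext
    by_contra hne
    have := hB hne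
    exact (Set.disjoint_left.mp this) hC hD
  let f : α → β := fun x => Classical.choose (hex x)
  have hf : ∀ x, x ∈ (f x).1 := fun x => Classical.choose_spec (hex x)
  have hf' : ∀ (x : α) (C : β), f x = C ↔ x ∈ C.1 :=
    fun x C => ⟨fun h => h ▸ hf x, fun h => huniq x _ _ (hf x) h⟩
  have hsurj : Function.Surjective f := by
    rintro ⟨C, g, rfl⟩
    exact ⟨g • x₀, (hf' (g • x₀) ⟨g • B, g, rfl⟩).mpr (Set.smul_mem_smul_set hx₀)⟩
  let _ : Fintype β := Fintype.ofFinite _
  -- fibres
  have hcard : ∀ C : β, Fintype.card (Fib f C) = Fintype.card B := by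
    rintro ⟨C, g, rfl⟩
    apply Fintype.card_congr
    refine ⟨fun x => ⟨g⁻¹ • x.1, ?_⟩, fun y => ⟨g • y.1, ?_⟩, ?_, ?_⟩
    · have := (hf' x.1 ⟨g • B, g, rfl⟩).mp x.2
      exact (Set.mem_smul_set_iff_inv_smul_mem).mp this
    · exact (hf' _ ⟨g • B, g, rfl⟩).mpr (Set.smul_mem_smul_set y.2)
    · intro x
      apply Subtype.ext
      simp
    · intro y
      apply Subtype.ext
      simp
  have hsum : Fintype.card α = Fintype.card β * Fintype.card B := by
    rw [← Fintype.card_congr (Equiv.sigmaFiberEquiv f), Fintype.card_sigma]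
    simp only [hcard]
    simp
  refine ⟨β, inferInstance, inferInstance, f, Fintype.card B, Fintype.card β, hsurj, ?_, ?_, rfl,
    hcard, ?_, hsum⟩
  · rw [Set.not_subsingleton_iff] at hs
    obtain ⟨a, ha, b, hb, hab⟩ := hs
    have : Fintype.card B ≠ 1 := by
      intro h1
      rw [Fintype.card_eq_one_iff] at h1
      obtain ⟨c, hc⟩ := h1
      have h2 := hc ⟨a, ha⟩
      have h3 := hc ⟨b, hb⟩
      apply hab
      rw [← Subtype.coe_mk a ha, h2, ← h3]
    have h0 : Fintype.card B ≠ 0 := by
      have : Nonempty B := ⟨⟨a, ha⟩⟩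
      exact Fintype.card_ne_zero
    omega
  · by_contra hlt
    have hm : Fintype.card β ≠ 0 := by
      have : Nonempty β := ⟨f x₀⟩
      exact Fintype.card_ne_zero
    have h1 : Fintype.card β = 1 := by omega
    rw [h1, one_mul] at hsum
    apply hu
    have : (B : Set α) = Set.univ := by
      have h2 : Fintype.card B = Fintype.card α := hsum.symm
      ext x
      simp only [Set.mem_univ, iff_true]
      by_contra hx
      have hlt : Fintype.card B < Fintype.card α := by
        apply Fintype.card_subtype_lt hx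
      omega
    exact this
  · intro g hg
    -- the induced permutation
    let τ : Perm β :=
      { toFun := fun C => ⟨(⟨g, hg⟩ : H) • C.1, by
          obtain ⟨C, k, rfl⟩ := C
          exact ⟨⟨g, hg⟩ * k, by rw [mul_smul]⟩⟩
        invFun := fun C => ⟨(⟨g, hg⟩ : H)⁻¹ • C.1, by
          obtain ⟨C, k, rfl⟩ := C
          exact ⟨(⟨g, hg⟩ : H)⁻¹ * k, by rw [mul_smul]⟩⟩
        left_inv := by
          intro C
          apply Subtype.ext
          exact inv_smul_smul _ _
        right_inv := by
          intro C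
          apply Subtype.ext
          exact smul_inv_smul _ _ }
    refine ⟨τ, fun x => ?_⟩
    rw [hf']
    exact Set.smul_mem_smul_set (a := (⟨g, hg⟩ : H)) (hf x)

end Cfsg.Agent.Lib.HallSym
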