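import Mathlib
import Cfsg.Prelude.Def_OddOrderLocal
import Cfsg.Agent.Lib.HallSym.Reduce

/-!
# The Hall-Thompson theorem on the Hall subgroups of `S_n`, assuming the primitive case
-/

set_option autoImplicit false
set_option linter.unusedSectionVars false
set_option linter.unusedVariables false

namespace Cfsg.Agent.Lib.HallSym

open Equiv Equiv.Perm Subgroup MulAction Cfsg
open scoped Nat Pointwise

universe u

variable {α : Type u} [Fintype α] [DecidableEq α]

theorem Yim_isPiHall {β : Type*} [Fintype β] [DecidableEq β] {π : Set ℕ} {H : Subgroup (Perm α)}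
    (hH : IsPiHall π H) (f : α → β) (b : β) (hd : (Yim H f b).index ∣ H.index) :
    IsPiHall π (Yim H f b) :=
  ⟨fun p hp hpd => hH.1 p hp (hpd.trans (card_Yim_dvd_card H f b)),
    fun p hp hpπ hpi => hH.2 p hp hpπ (hpi.trans hd)⟩

/-- the structural conclusion for a Hall subgroup in the non-trivial cases -/
def Form (π : Set ℕ) (H : Subgroup (Perm α)) : Prop :=
  (PrimeCase π (Fintype.card α) ∧ ∃ s : α → Bool, Fintype.card (Fib s true) = 1 ∧ H ≤ kerG s) ∨
  (Fintype.card α = 7 ∧ TwoThree π 7 ∧ ∃ s : α → Bool, Fintype.card (Fib s true) = 3 ∧ H ≤ kerG s) ∨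
  (Fintype.card α = 8 ∧ TwoThree π 8 ∧ ∃ s : α → Bool,
    (Fintype.card (Fib s true) = 4 ∧ Fintype.card (Fib s false) = 4) ∧ H ≤ wrG s)

/-- the primitive case for `S_n` -/
def PrimA (π : Set ℕ) : Prop :=
  ∀ (α : Type u) [Fintype α] [DecidableEq α] (H : Subgroup (Perm α)), IsPreprimitive H α →
    IsPiHall π H → ¬ OneP π (Fintype.card α) → ¬ AllP π (Fintype.card α) → False

theorem card_eq_add_of_bool (s : α → Bool) :
    Fintype.card α = Fintype.card (Fib s true) + Fintype.card (Fib s false) := by
  rw [← Fintype.card_congr (Equiv.sigmaFiberEquiv s), Fintype.card_sigma]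
  simp

theorem primes_of_transitive {π : Set ℕ} {H : Subgroup (Perm α)} (hH : IsPiHall π H)
    [IsPretransitive H α] [Nonempty α] : ∀ q : ℕ, q.Prime → q ∣ Fintype.card α → q ∈ π := by
  intro q hq hd
  apply hH.1 q hq
  obtain ⟨x⟩ := ‹Nonempty α›
  have h1 := MulAction.index_stabilizer_of_transitive H x
  rw [Nat.card_eq_fintype_card] at h1
  rw [← h1] at hd
  exact hd.trans (Subgroup.index_dvd_card _)

theorem intrans_step {π : Set ℕ} {H : Subgroup (Perm α)} (hH : IsPiHall π H)
    (ih : ∀ m < Fintype.card α, ∀ (γ : Type u) [Fintype γ] [DecidableEq γ], Fintype.card γ = m →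
      ∀ K : Subgroup (Perm γ), IsPiHall π K → Cls π m)
    (hO : ¬ OneP π (Fintype.card α)) (hA : ¬ AllP π (Fintype.card α))
    (s : α → Bool) (hs : H ≤ kerG s) (ha : 1 ≤ Fintype.card (Fib s true))
    (hab : Fintype.card (Fib s true) ≤ Fintype.card (Fib s false)) : Form π H := by
  have hsum := card_eq_add_of_bool s
  set a := Fintype.card (Fib s true) with ha'
  set b := Fintype.card (Fib s false) with hb'
  have hw : ((a + b).choose a) * (∏ c, (Fintype.card (Fib s c))!) = (Fintype.card α)! := by
    rw [Fintype.prod_bool, hsum, ← ha', ← hb']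
    have := Nat.add_choose_mul_factorial_mul_factorial a b
    rw [← this, Nat.choose_symm_add]
    ring
  have hd := index_ker_dvd hs hw
  have hd1 : (a + b).choose a ∣ H.index := (Dvd.intro _ rfl).trans hd
  have hd2 : (Yim H s false).index ∣ H.index :=
    (Finset.dvd_prod_of_mem _ (Finset.mem_univ false)).trans ((Dvd.intro_left _ rfl).trans hd)
  have hY := Yim_isPiHall hH s false hd2
  have hcls : Cls π b := ih b (by omega) (Fib s false) rfl (Yim H s false) hY
  rw [hsum] at hO hA
  have hC : ∀ q : ℕ, q.Prime → q ∈ π → ¬ q ∣ (a + b).choose a :=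
    fun q hq hqπ hqd => hH.2 q hq hqπ (hqd.trans hd1)
  rcases two_block ha hab hO hA hC hcls with ⟨h1, h2⟩ | ⟨h1, h2, h3⟩
  · left
    rw [hsum]
    exact ⟨h2, s, h1, hs⟩
  · right; left
    refine ⟨by omega, h3, s, h1, hs⟩

theorem block_step {π : Set ℕ} {H : Subgroup (Perm α)} (hH : IsPiHall π H)
    (ih : ∀ m < Fintype.card α, ∀ (γ : Type u) [Fintype γ] [DecidableEq γ], Fintype.card γ = m →
      ∀ K : Subgroup (Perm γ), IsPiHall π K → Cls π m)
    (hO : ¬ OneP π (Fintype.card α)) (hA : ¬ AllP π (Fintype.card α))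
    (ht : IsPretransitive H α) (hp : ¬ IsPreprimitive H α) : Form π H := by
  obtain ⟨β, _, _, f, d, m, hf, hd, hm, hcardβ, hcard, hle, hn⟩ := exists_fibers_of_not_prim H hp
  have hw : wr d m * ((∏ b, (Fintype.card (Fib f b))!) * (Fintype.card β)!) = (Fintype.card α)! := by
    simp only [hcard, Finset.prod_const, Finset.card_univ, hcardβ]
    rw [hn, ← wr_mul d (by omega) m]
    ring
  have hdv := index_wr_dvd hf hle hw
  have hd1 : wr d m ∣ H.index := (Dvd.intro _ rfl).trans hdv
  have hβ : Nonempty β := by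
    apply Fintype.card_pos_iff.mp
    omega
  obtain ⟨b₀⟩ := hβ
  have hd2 : (Yim H f b₀).index ∣ H.index :=
    (Finset.dvd_prod_of_mem _ (Finset.mem_univ b₀)).trans ((Dvd.intro_left _ rfl).trans hdv)
  have hY := Yim_isPiHall hH f b₀ hd2
  have hdlt : d < Fintype.card α := by
    rw [hn]
    nlinarith
  have hcls : Cls π d := ih d hdlt (Fib f b₀) (hcard b₀) _ hY
  have hne : Nonempty α := by
    apply Fintype.card_pos_iff.mp
    omega
  have hprimes := primes_of_transitive hH (α := α)
  rw [hn] at hO hA hprimes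
  have hW : ∀ q : ℕ, q.Prime → q ∈ π → ¬ q ∣ wr d m :=
    fun q hq hqπ hqd => hH.2 q hq hqπ (hqd.trans hd1)
  obtain ⟨rfl, rfl, h3⟩ := blocks hd hm hO hA hW hcls hprimes
  right; right
  have e : β ≃ Bool := Fintype.equivOfCardEq (by simp [hcardβ])
  refine ⟨by rw [hn], h3, fun x => e (f x), ?_, ?_⟩
  · have key : ∀ c : Bool, Fintype.card (Fib (fun x => e (f x)) c) = 4 := by
      intro c
      rw [← hcard (e.symm c)]
      apply Fintype.card_congr
      refine Equiv.subtypeEquivRight fun x => ?_
      rw [Equiv.eq_symm_apply]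
    exact ⟨key true, key false⟩
  · intro g hg
    obtain ⟨τ, hτ⟩ := hle hg
    refine ⟨e.symm.trans (τ.trans e), fun x => ?_⟩
    simp [hτ]

/-- The theorem of Hall and Thompson, with structure, from the primitive case. -/
theorem hall_cls_form {π : Set ℕ} (prim : PrimA.{u} π) : ∀ (n : ℕ) (α : Type u) [Fintype α]
    [DecidableEq α], Fintype.card α = n → ∀ H : Subgroup (Perm α), IsPiHall π H →
      Cls π n ∧ (¬ OneP π n → ¬ AllP π n → Form π H) := by
  intro n
  induction n using Nat.strong_induction_on with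
  | _ n ih =>
    intro α _ _ hn H hH
    subst hn
    have key : ¬ OneP π (Fintype.card α) → ¬ AllP π (Fintype.card α) → Form π H := by
      intro hO hA
      have ih' : ∀ m < Fintype.card α, ∀ (γ : Type u) [Fintype γ] [DecidableEq γ],
          Fintype.card γ = m → ∀ K : Subgroup (Perm γ), IsPiHall π K → Cls π m :=
        fun m hm γ _ _ hγ K hK => (ih m hm γ hγ K hK).1
      by_cases ht : IsPretransitive H α
      · by_cases hp : IsPreprimitive H α
        · exact (prim α H hp hH hO hA).elim
        · exact block_step hH ih' hO hA ht hp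
      · obtain ⟨s, hs, ⟨x, hx⟩, ⟨y, hy⟩⟩ := exists_bool_of_not_trans H ht
        have hT : 1 ≤ Fintype.card (Fib s true) := Fintype.card_pos_iff.mpr ⟨⟨x, hx⟩⟩
        have hF : 1 ≤ Fintype.card (Fib s false) := Fintype.card_pos_iff.mpr ⟨⟨y, hy⟩⟩
        rcases le_total (Fintype.card (Fib s true)) (Fintype.card (Fib s false)) with h | h
        · exact intrans_step hH ih' hO hA s hs hT h
        · -- swap the two fibres
          let s' : α → Bool := fun z => !(s z)
          have hs' : H ≤ kerG s' := by
            intro g hg z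
            simp only [s']
            rw [hs hg z]
          have e1 : Fintype.card (Fib s' true) = Fintype.card (Fib s false) := by
            apply Fintype.card_congr
            refine Equiv.subtypeEquivRight fun z => ?_
            simp [s']
          have e2 : Fintype.card (Fib s' false) = Fintype.card (Fib s true) := by
            apply Fintype.card_congr
            refine Equiv.subtypeEquivRight fun z => ?_
            simp [s']
          exact intrans_step hH ih' hO hA s' hs' (by omega) (by omega)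
    refine ⟨?_, key⟩
    by_cases hO : OneP π (Fintype.card α)
    · exact Or.inl hO
    by_cases hA : AllP π (Fintype.card α)
    · exact Or.inr (Or.inl hA)
    rcases key hO hA with ⟨h, _⟩ | ⟨h1, h2, _⟩ | ⟨h1, h2, _⟩
    · exact Or.inr (Or.inr (Or.inl h))
    · refine Or.inr (Or.inr (Or.inr ⟨Or.inl h1, ?_⟩))
      rw [h1]
      exact h2
    · refine Or.inr (Or.inr (Or.inr ⟨Or.inr h1, ?_⟩))
      rw [h1]
      exact h2

end Cfsg.Agent.Lib.HallSym
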