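import Mathlib
import Cfsg.Agent.S0713
import Cfsg.Agent.Lib.HallSym.ThmA

/-!
# Hall subgroups of `S_n`: the primitive case
-/

set_option autoImplicit false
set_option linter.unusedSectionVars false
set_option linter.unusedVariables false

namespace Cfsg.Agent.Lib.HallSym

open Equiv Equiv.Perm Subgroup MulAction Cfsg
open scoped Nat Pointwise

universe u

/-- a `q`-subgroup is conjugate into a subgroup of index prime to `q` -/
theorem exists_conj_mem {G : Type*} [Group G] [Finite G] {q : ℕ} [hq : Fact q.Prime]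
    (H : Subgroup G) (hqH : ¬ q ∣ H.index) (P : Subgroup G) (hP : IsPGroup q P) :
    ∃ g : G, ∀ x ∈ P, g⁻¹ * x * g ∈ H := by
  have h1 : ¬ q ∣ Nat.card (G ⧸ H) := hqH
  obtain ⟨c, hc⟩ := hP.nonempty_fixed_point_of_prime_not_dvd_card (G ⧸ H) h1
  obtain ⟨g, rfl⟩ := QuotientGroup.mk_surjective c
  refine ⟨g, fun x hx => ?_⟩
  have h2 := hc ⟨x, hx⟩
  have h3 : (((x * g : G)) : G ⧸ H) = (g : G ⧸ H) := h2
  rw [QuotientGroup.eq] at h3
  have h4 := H.inv_mem h3
  simpa [mul_assoc] using h4

variable {α : Type u} [Fintype α] [DecidableEq α]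

/-- there is a cycle of each length `2 ≤ q ≤ n`-/
theorem exists_cycle_of_le {q : ℕ} (h2 : 2 ≤ q) (hq : q ≤ Fintype.card α) :
    ∃ c : Perm α, c.IsCycle ∧ c.support.card = q := by
  obtain ⟨s, _, hs⟩ := Finset.exists_subset_card_eq (s := (Finset.univ : Finset α)) (n := q)
    (by simpa using hq)
  have hnd := s.nodup_toList
  have hlen : s.toList.length = q := by rw [Finset.length_toList, hs]
  refine ⟨s.toList.formPerm, List.isCycle_formPerm hnd (by omega), ?_⟩
  rw [List.support_formPerm_of_nodup _ hnd, List.toFinset_card_of_nodup hnd, hlen]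
  intro x hx
  rw [hx] at hlen
  simp at hlen
  omega

theorem exists_cycle_mem {π : Set ℕ} {H : Subgroup (Perm α)} (hH : IsPiHall π H) {q : ℕ}
    (hq : q.Prime) (hqπ : q ∈ π) (hqn : q ≤ Fintype.card α) :
    ∃ g ∈ H, g.IsCycle ∧ g.support.card = q := by
  haveI : Fact q.Prime := ⟨hq⟩
  obtain ⟨c, hc, hcs⟩ := exists_cycle_of_le hq.two_le hqn
  have hP : IsPGroup q (zpowers c) := by
    apply IsPGroup.of_card (n := 1)
    rw [Nat.card_zpowers, hc.orderOf, hcs, pow_one]
  obtain ⟨g, hg⟩ := exists_conj_mem H (hH.2 q hq hqπ) (zpowers c) hP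
  have h1 := hg c (mem_zpowers c)
  refine ⟨_, h1, ?_, ?_⟩
  · have := hc.conj (g := g⁻¹)
    simpa using this
  · have := card_support_conj (σ := g⁻¹) (τ := c)
    rw [inv_inv] at this
    rw [this, hcs]

theorem allP_of_top {π : Set ℕ} (hH : IsPiHall π (⊤ : Subgroup (Perm α))) :
    AllP π (Fintype.card α) := by
  intro r hr hrn
  apply hH.1 r hr
  rw [Subgroup.card_top, Nat.card_perm, Nat.card_eq_fintype_card]
  exact (Nat.Prime.dvd_factorial hr).mpr hrn

theorem two_dvd_card_alternating (hn : 4 ≤ Fintype.card α) :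
    2 ∣ Nat.card (alternatingGroup α) := by
  haveI : Nontrivial α := Fintype.one_lt_card_iff_nontrivial.mp (by omega)
  have h1 := two_mul_card_alternatingGroup (α := α)
  rw [Fintype.card_perm] at h1
  have h2 : 4 ∣ (Fintype.card α)! :=
    Dvd.dvd.trans (by decide : 4 ∣ 4 !) (Nat.factorial_dvd_factorial hn)
  rw [Nat.card_eq_fintype_card]
  rw [← h1] at h2
  omega

/-- if a subgroup has a unique Sylow `u`-subgroup, of order `u`, generated by `x`, then `x` generates a
normal subgroup -/
theorem conj_mem_zpowers_of_unique {K : Type*} [Group K] [Finite K] {u : ℕ} (hu : u.Prime)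
    (hu2 : ¬ u ^ 2 ∣ Nat.card K) (x : K) (hx : orderOf x = u) (h1 : Nat.card (Sylow u K) = 1)
    (y : K) : y * x * y⁻¹ ∈ zpowers x := by
  haveI : Fact u.Prime := ⟨hu⟩
  haveI : Subsingleton (Sylow u K) := by
    haveI := Nat.finite_of_card_ne_zero (α := Sylow u K) (by omega)
    exact (Nat.card_eq_one_iff_unique.mp h1).1
  have hP : IsPGroup u (zpowers x) := by
    apply IsPGroup.of_card (n := 1)
    rw [Nat.card_zpowers, hx, pow_one]
  obtain ⟨Q, hQ⟩ := hP.exists_le_sylow
  have hQn : (Q : Subgroup K).Normal := Sylow.normal_of_subsingleton Q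
  have hcard : Nat.card Q = u := by
    have h2 : Nat.card (zpowers x) ∣ Nat.card Q := Subgroup.card_dvd_of_le hQ
    rw [Nat.card_zpowers, hx] at h2
    obtain ⟨k, hk⟩ := Q.2 |> fun h => IsPGroup.iff_card.mp h
    rw [hk] at h2 ⊢
    have h3 : (Q : Subgroup K).index * u ^ k = Nat.card K := by
      rw [mul_comm, ← hk]
      exact Subgroup.card_mul_index _
    have hk1 : k < 2 := by
      by_contra hlt
      apply hu2
      rw [← h3]
      exact Dvd.dvd.mul_left (pow_dvd_pow u (by omega)) _
    have hk0 : k ≠ 0 := by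
      rintro rfl
      simp at h2
      exact hu.one_lt.ne' h2
    have : k = 1 := by omega
    rw [this, pow_one]
  have heq : zpowers x = (Q : Subgroup K) := by
    apply Subgroup.eq_of_le_of_card_ge hQ
    rw [hcard, Nat.card_zpowers, hx]
  rw [heq]
  exact hQn.conj_mem x (heq ▸ mem_zpowers x) y

/-- The twin prime case. -/
theorem no_twin {H : Subgroup (Perm α)} {p : ℕ} (hp : p.Prime) (hp2 : (p + 2).Prime) (hp3 : 3 ≤ p)
    (hn : Fintype.card α = p + 2)
    (hprimes : ∀ t : ℕ, t.Prime → t ∣ Nat.card H → t = p ∨ t = p + 2)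
    {c e : Perm α} (hcH : c ∈ H) (heH : e ∈ H) (hc : c.IsCycle) (hcs : c.support.card = p + 2)
    (he : e.IsCycle) (hes : e.support.card = p) : False := by
  haveI : Fact (p + 2).Prime := ⟨hp2⟩
  have hdvd : Nat.card H ∣ (p + 2)! := by
    have := Subgroup.card_subgroup_dvd_card H
    rwa [Nat.card_perm, Nat.card_eq_fintype_card (α := α), hn] at this
  have hfac : (p + 2)! = (p + 2) * ((p + 1) * p !) := by
    rw [Nat.factorial_succ, Nat.factorial_succ]
  -- `(p+2)^2` and `p^2` do not divide
  have hq2 : ¬ (p + 2) ^ 2 ∣ Nat.card H := by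
    intro h
    have h1 := h.trans hdvd
    rw [hfac, pow_two] at h1
    have h2 := Nat.dvd_of_mul_dvd_mul_left (by omega) h1
    rcases (Nat.Prime.dvd_mul hp2).mp h2 with h3 | h3
    · have := Nat.le_of_dvd (by omega) h3
      omega
    · have := (Nat.Prime.dvd_factorial hp2).mp h3
      omega
  have hp2' : ¬ p ^ 2 ∣ Nat.card H := by
    intro h
    have h1 := h.trans hdvd
    obtain ⟨r, hr⟩ : ∃ r, p = r + 1 := ⟨p - 1, by omega⟩
    have hfac2 : (p + 2)! = p * ((p + 2) * (p + 1) * (p - 1)!) := by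
      rw [hfac, hr]
      simp only [Nat.add_sub_cancel]
      rw [Nat.factorial_succ]
      ring
    rw [hfac2, pow_two] at h1
    have h2 := Nat.dvd_of_mul_dvd_mul_left hp.pos h1
    rcases (Nat.Prime.dvd_mul hp).mp h2 with h3 | h3
    · rcases (Nat.Prime.dvd_mul hp).mp h3 with h4 | h4
      · have h5 : p ∣ 2 := (Nat.dvd_add_right dvd_rfl).mp h4
        have := Nat.le_of_dvd (by norm_num) h5
        omega
      · have h5 : p ∣ 1 := (Nat.dvd_add_right dvd_rfl).mp h4
        have := Nat.le_of_dvd (by norm_num) h5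
        omega
    · have := (Nat.Prime.dvd_factorial hp).mp h3
      omega
  have hcop : Nat.Coprime p (p + 2) := by
    rw [Nat.coprime_primes hp hp2]
    omega
  have hd1 : p + 2 ∣ Nat.card H := by
    have := Subgroup.orderOf_dvd_natCard H hcH
    rwa [hc.orderOf, hcs] at this
  have hd2 : p ∣ Nat.card H := by
    have := Subgroup.orderOf_dvd_natCard H heH
    rwa [he.orderOf, hes] at this
  have hcardH : Nat.card H = p * (p + 2) := by
    obtain ⟨t, ht⟩ := hcop.mul_dvd_of_dvd_of_dvd hd2 hd1
    by_cases ht1 : t = 1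
    · rw [ht, ht1, mul_one]
    · exfalso
      have ht0 : t ≠ 0 := by
        rintro rfl
        have : 0 < Nat.card H := Nat.card_pos
        simp [ht] at this
      obtain ⟨u, hu, hut⟩ := Nat.exists_prime_and_dvd ht1
      have hu' : u ∣ Nat.card H := by
        rw [ht]
        exact Dvd.dvd.mul_left hut _
      rcases hprimes u hu hu' with rfl | rfl
      · apply hp2'
        rw [ht, pow_two]
        obtain ⟨w, rfl⟩ := hut
        exact ⟨(u + 2) * w, by ring⟩
      · apply hq2
        rw [ht, pow_two]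
        obtain ⟨w, rfl⟩ := hut
        exact ⟨p * w, by
          obtain ⟨r, hr⟩ : ∃ r, p = r + 2 - 2 := ⟨p, by omega⟩
          ring⟩
  -- the Sylow subgroup is unique
  have huniq : Nat.card (Sylow (p + 2) H) = 1 := by
    have h1 := card_sylow_modEq_one (p + 2) H
    obtain ⟨Q⟩ : Nonempty (Sylow (p + 2) H) := inferInstance
    have h2 := Sylow.card_dvd_index Q
    have hind : (Q : Subgroup H).index ∣ p := by
      have h3 := Subgroup.card_mul_index (Q : Subgroup H)
      obtain ⟨k, hk⟩ := IsPGroup.iff_card.mp Q.2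
      have h4 : (p + 2) ∣ Nat.card (Q : Subgroup H) := by
        have : ((p + 2) ^ 1) ∣ Nat.card H := by rwa [pow_one]
        have h5 := Sylow.pow_dvd_card_of_pow_dvd_card Q this
        rwa [pow_one] at h5
      rw [hcardH] at h3
      obtain ⟨w, hw⟩ := h4
      refine ⟨w, ?_⟩
      rw [hw] at h3
      have : (p + 2) * (w * (Q : Subgroup H).index) = (p + 2) * p := by
        rw [← mul_assoc, h3]
        ring
      have := Nat.eq_of_mul_eq_mul_left (by omega) this
      rw [mul_comm]
      exact this.symm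
    have hle : Nat.card (Sylow (p + 2) H) ≤ p := Nat.le_of_dvd hp.pos (h2.trans hind)
    have hmod : Nat.card (Sylow (p + 2) H) % (p + 2) = 1 := by
      have := h1
      unfold Nat.ModEq at this
      rwa [Nat.mod_eq_of_lt (a := 1) (by omega)] at this
    rw [Nat.mod_eq_of_lt (by omega)] at hmod
    exact hmod
  -- conjugation
  have hcord : orderOf (⟨c, hcH⟩ : H) = p + 2 := by
    rw [Subgroup.orderOf_mk, hc.orderOf, hcs]
  have hconj := conj_mem_zpowers_of_unique hp2 hq2 (⟨c, hcH⟩ : H) hcord huniq (⟨e, heH⟩ : H)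
  rw [Subgroup.mem_zpowers_iff] at hconj
  obtain ⟨z, hz⟩ := hconj
  -- pass to a natural power
  obtain ⟨k, hk⟩ : ∃ k : ℕ, e * c * e⁻¹ = c ^ k := by
    have hz' : c ^ z = e * c * e⁻¹ := by
      have := congrArg Subtype.val hz
      simpa using this
    have hcn : c ^ (p + 2 : ℕ) = 1 := by
      rw [← hcs, ← hc.orderOf]
      exact pow_orderOf_eq_one c
    refine ⟨(z % (p + 2 : ℕ)).toNat, ?_⟩
    rw [← hz']
    have hnn : 0 ≤ z % (p + 2 : ℕ) := Int.emod_nonneg _ (by positivity)
    conv_lhs => rw [← Int.mul_ediv_add_emod z (p + 2 : ℕ)]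
    rw [zpow_add, zpow_mul, zpow_natCast, hcn, one_zpow, one_mul]
    conv_lhs => rw [← Int.toNat_of_nonneg hnn]
    rw [zpow_natCast]
  have hpow : ∀ j : ℕ, e ^ j * c * e⁻¹ ^ j = c ^ (k ^ j) := by
    intro j
    induction j with
    | zero => simp
    | succ j ih =>
      have h1 : e ^ (j + 1) * c * e⁻¹ ^ (j + 1) = e ^ j * (e * c * e⁻¹) * e⁻¹ ^ j := by
        rw [pow_succ e j, pow_succ' e⁻¹ j]
        group
      rw [h1, hk]
      have h2 : e ^ j * c ^ k * e⁻¹ ^ j = (e ^ j * c * e⁻¹ ^ j) ^ k := by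
        have : e⁻¹ ^ j = (e ^ j)⁻¹ := by rw [inv_pow]
        rw [this, conj_pow]
      rw [h2, ih, ← pow_mul, pow_succ]
  have hep : e ^ p = 1 := by
    rw [← hes, ← he.orderOf]
    exact pow_orderOf_eq_one e
  have h1 := hpow p
  rw [hep, inv_pow, hep] at h1
  simp only [one_mul, inv_one, mul_one] at h1
  -- `k ^ p ≡ 1` modulo `p + 2`
  have hord : orderOf c = p + 2 := by rw [hc.orderOf, hcs]
  have hmod : (k ^ p : ℕ) ≡ 1 [MOD (p + 2)] := by
    have h2 : c ^ (k ^ p) = c ^ 1 := by rw [← h1, pow_one]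
    have := (pow_eq_pow_iff_modEq).mp h2
    rwa [hord] at this
  have hk0 : (k : ZMod (p + 2)) ≠ 0 := by
    intro h0
    have h3 : (((k ^ p : ℕ) : ZMod (p + 2))) = ((1 : ℕ) : ZMod (p + 2)) :=
      (ZMod.natCast_eq_natCast_iff _ _ _).mpr hmod
    push_cast at h3
    rw [h0, zero_pow (by omega)] at h3
    exact zero_ne_one h3
  have hk1 : (k : ZMod (p + 2)) = 1 := by
    have h3 : (((k ^ p : ℕ) : ZMod (p + 2))) = ((1 : ℕ) : ZMod (p + 2)) :=
      (ZMod.natCast_eq_natCast_iff _ _ _).mpr hmod
    push_cast at h3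
    have h4 := ZMod.pow_card_sub_one_eq_one hk0
    have h5 : p + 2 - 1 = p + 1 := by omega
    rw [h5, pow_succ, h3, one_mul] at h4
    exact h4
  have hkc : c ^ k = c := by
    have h3 : (k : ZMod (p + 2)) = ((1 : ℕ) : ZMod (p + 2)) := by simpa using hk1
    have h4 := (ZMod.natCast_eq_natCast_iff _ _ _).mp h3
    have h5 : c ^ k = c ^ 1 := by
      apply (pow_eq_pow_iff_modEq).mpr
      rwa [hord]
    rwa [pow_one] at h5
  rw [hkc] at hk
  have hcomm : e * c = c * e := by
    calc e * c = e * c * e⁻¹ * e := by group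
      _ = c * e := by rw [hk]
  -- `e` has a fixed point, hence is trivial
  have hsupp : c.support = Finset.univ := by
    apply Finset.eq_univ_of_card
    rw [hcs, hn]
  obtain ⟨x, hx⟩ : ∃ x, e x = x := by
    by_contra hcon
    push_neg at hcon
    have : e.support = Finset.univ := by
      ext y
      simpa using hcon y
    have h3 : e.support.card = p + 2 := by
      rw [this, Finset.card_univ, hn]
    omega
  have hefix : e = 1 := by
    ext y
    have hy : c.SameCycle x y := hc.sameCycle (by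
      rw [← mem_support, hsupp]
      exact Finset.mem_univ x) (by
      rw [← mem_support, hsupp]
      exact Finset.mem_univ y)
    obtain ⟨i, rfl⟩ := hy
    have h3 : Commute e (c ^ i) := Commute.zpow_right hcomm i
    have h4 : e ((c ^ i) x) = (c ^ i) (e x) := by
      have := congrArg (fun f : Perm α => f x) h3.eq
      simpa using this
    rw [h4, hx]
    rfl
  rw [hefix] at hes
  simp at hes
  omega

/-- The primitive case for `S_n`. -/
theorem primA (π : Set ℕ) : PrimA.{u} π := by
  intro α _ _ H hprim hH hO hA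
  classical
  -- two primes
  have hO' := hO
  unfold OneP at hO'
  push_neg at hO'
  obtain ⟨r, s, hr, hs, hrπ, hsπ, hrn, hsn, hne⟩ := hO'
  by_cases h2 : 2 ∈ π
  · -- a transposition
    have hn2 : 2 ≤ Fintype.card α := by
      have := hr.two_le
      omega
    obtain ⟨g, hg, hgc, hgs⟩ := exists_cycle_mem hH Nat.prime_two h2 hn2
    have hsw : g.IsSwap := Equiv.Perm.card_support_eq_two.mp hgs
    have htop := subgroup_eq_top_of_isPreprimitive_of_isSwap_mem hprim g hsw hg
    subst htop
    exact hA (allP_of_top hH)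
  · have hr2 : r ≠ 2 := by rintro rfl; exact h2 hrπ
    have hs2 : s ≠ 2 := by rintro rfl; exact h2 hsπ
    have hrodd := hr.odd_of_ne_two hr2
    have hsodd := hs.odd_of_ne_two hs2
    have hr3 : 3 ≤ r := by
      have := hr.two_le
      omega
    have hs3 : 3 ≤ s := by
      have := hs.two_le
      omega
    have hn5 : 5 ≤ Fintype.card α := by
      obtain ⟨a, ha⟩ := hrodd
      obtain ⟨b, hb⟩ := hsodd
      omega
    by_cases hex : ∃ q : ℕ, q.Prime ∧ q ∈ π ∧ q + 3 ≤ Fintype.card α
    · obtain ⟨q, hq, hqπ, hqn⟩ := hex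
      obtain ⟨g, hg, hgc, hgs⟩ := exists_cycle_mem hH hq hqπ (by omega)
      have hle := Cfsg.Agent.S0713.result H hprim hq hn5 hqn hgc hgs hg
      apply h2
      apply hH.1 2 Nat.prime_two
      exact (two_dvd_card_alternating (by omega)).trans (Subgroup.card_dvd_of_le hle)
    · push_neg at hex
      have hall : ∀ q : ℕ, q.Prime → q ∈ π → Fintype.card α < q + 3 := fun q hq hqπ => hex q hq hqπ
      have h1 := hall r hr hrπ
      have h3 := hall s hs hsπ
      obtain ⟨a, ha⟩ := hrodd
      obtain ⟨b, hb⟩ := hsodd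
      -- both are `n - 2` and `n`
      obtain ⟨p, hp, hp2, hpπ, hp2π, hpn⟩ : ∃ p : ℕ, p.Prime ∧ (p + 2).Prime ∧ p ∈ π ∧ (p + 2) ∈ π ∧
          Fintype.card α = p + 2 := by
        rcases lt_or_gt_of_ne hne with hlt | hlt
        · have : s = r + 2 := by omega
          subst this
          exact ⟨r, hr, hs, hrπ, hsπ, by omega⟩
        · have : r = s + 2 := by omega
          subst this
          exact ⟨s, hs, hr, hsπ, hrπ, by omega⟩
      obtain ⟨c, hcH, hc, hcs⟩ := exists_cycle_mem hH hp2 hp2π (by omega)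
      obtain ⟨e, heH, he, hes⟩ := exists_cycle_mem hH hp hpπ (by omega)
      have hp3 : 3 ≤ p := by
        have := hp.two_le
        have hne2 : p ≠ 2 := by rintro rfl; exact h2 hpπ
        omega
      refine no_twin hp hp2 hp3 hpn ?_ hcH heH hc hcs he hes
      intro t ht htd
      have htπ := hH.1 t ht htd
      have hle : t ≤ p + 2 := by
        have h4 := Subgroup.card_subgroup_dvd_card H
        rw [Nat.card_perm, Nat.card_eq_fintype_card (α := α), hpn] at h4
        exact (Nat.Prime.dvd_factorial ht).mp (htd.trans h4)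
      have h5 := hall t ht htπ
      have ht2 : t ≠ 2 := by rintro rfl; exact h2 htπ
      have htodd := ht.odd_of_ne_two ht2
      have hpodd := hp.odd_of_ne_two (by omega)
      obtain ⟨x, hx⟩ := htodd
      obtain ⟨y, hy⟩ := hpodd
      omega

end Cfsg.Agent.Lib.HallSym
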