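import Mathlib
import Cfsg.Agent.Lib.HallSym.PrimA

/-!
# Hall subgroups of `S_n`: existence and identification
-/

set_option autoImplicit false
set_option linter.unusedSectionVars false
set_option linter.unusedVariables false

namespace Cfsg.Agent.Lib.HallSym

open Equiv Equiv.Perm Subgroup MulAction Cfsg
open scoped Nat Pointwise

universe u

variable {α : Type u} [Fintype α] [DecidableEq α]

theorem hall_cls_form' {π : Set ℕ} (H : Subgroup (Perm α)) (hH : IsPiHall π H) :
    Cls π (Fintype.card α) ∧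
      (¬ OneP π (Fintype.card α) → ¬ AllP π (Fintype.card α) → Form π H) :=
  hall_cls_form (primA π) _ α rfl H hH

/-- the order of `kerG s` -/
theorem card_kerG (s : α → Bool) :
    Nat.card (kerG s) = (Fintype.card (Fib s true))! * (Fintype.card (Fib s false))! := by
  apply Nat.dvd_antisymm
  · -- upper bound
    have h1 := card_dvd_of_le_ker (K := kerG s) (f := s) le_rfl
    rw [Fintype.prod_bool] at h1
    refine h1.trans (Nat.mul_dvd_mul ?_ ?_)
    · have := Subgroup.card_subgroup_dvd_card (Yim (kerG s) s true)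
      rwa [card_fib] at this
    · have := Subgroup.card_subgroup_dvd_card (Yim (kerG s) s false)
      rwa [card_fib] at this
  · -- lower bound
    let p : α → Prop := fun x => s x = true
    let ι : Perm {x // s x = true} × Perm {x // ¬ s x = true} →* Perm α := subtypeCongrHom p
    have hι : Function.Injective ι := subtypeCongrHom_injective p
    have hle : ι.range ≤ kerG s := by
      rintro _ ⟨⟨a, c⟩, rfl⟩ x
      by_cases hx : s x = true
      · have h1 : ι (a, c) x = a ⟨x, hx⟩ := by
          change (a.subtypeCongr c) x = _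
          exact Perm.subtypeCongr.left_apply (p := p) a c hx
        rw [h1, (a ⟨x, hx⟩).2, hx]
      · have h1 : ι (a, c) x = c ⟨x, hx⟩ := by
          change (a.subtypeCongr c) x = _
          exact Perm.subtypeCongr.right_apply (p := p) a c hx
        rw [h1]
        have h2 := (c ⟨x, hx⟩).2
        simp only [Bool.not_eq_true] at h2 hx
        rw [h2, hx]
    have h3 := Subgroup.card_dvd_of_le hle
    have h4 : Nat.card ι.range = Nat.card (Perm {x // s x = true} × Perm {x // ¬ s x = true}) :=
      Nat.card_congr (MonoidHom.ofInjective hι).toEquiv.symm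
    rw [h4, Nat.card_prod, Nat.card_perm, Nat.card_perm, Nat.card_eq_fintype_card,
      Nat.card_eq_fintype_card] at h3
    have h5 : Fintype.card {x // ¬ s x = true} = Fintype.card (Fib s false) := by
      apply Fintype.card_congr
      exact Equiv.subtypeEquivRight fun x => by simp
    rw [h5] at h3
    exact h3

/-- a function to `Bool` with a prescribed fibre size -/
theorem exists_bool_card (k : ℕ) (hk : k ≤ Fintype.card α) :
    ∃ s : α → Bool, Fintype.card (Fib s true) = k := by
  obtain ⟨t, _, ht⟩ := Finset.exists_subset_card_eq (s := (Finset.univ : Finset α)) (n := k)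
    (by simpa using hk)
  refine ⟨fun x => decide (x ∈ t), ?_⟩
  rw [← ht, ← Fintype.card_coe t]
  apply Fintype.card_congr
  exact Equiv.subtypeEquivRight fun x => by simp

/-- two functions with the same fibre sizes differ by a permutation -/
theorem exists_perm_of_fibers {β : Type*} [Fintype β] [DecidableEq β] (s s' : α → β)
    (h : ∀ c, Fintype.card (Fib s c) = Fintype.card (Fib s' c)) :
    ∃ g : Perm α, ∀ x, s' (g x) = s x := by
  let e : ∀ c, Fib s c ≃ Fib s' c := fun c => Fintype.equivOfCardEq (h c)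
  let g : Perm α := (Equiv.sigmaFiberEquiv s).symm.trans
    ((Equiv.sigmaCongrRight e).trans (Equiv.sigmaFiberEquiv s'))
  refine ⟨g, fun x => ?_⟩
  exact (e (s x) ⟨x, rfl⟩).2

theorem mem_ker_topF {s : α → Bool} (hsurj : Function.Surjective s) (σ : wrG s) :
    σ ∈ (topF hsurj).ker ↔ ((σ : Perm α) ∈ kerG s) := by
  rw [MonoidHom.mem_ker]
  constructor
  · intro h x
    rw [topF_spec hsurj, h]
    rfl
  · intro h
    ext c
    obtain ⟨x, rfl⟩ := hsurj c
    rw [← topF_spec hsurj, h x]
    rfl

/-- the order of `wrG s` when the two fibres have the same size -/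
theorem card_wrG (s : α → Bool) {d : ℕ} (hd : 1 ≤ d) (h1 : Fintype.card (Fib s true) = d)
    (h2 : Fintype.card (Fib s false) = d) : Nat.card (wrG s) = 2 * (d ! * d !) := by
  have hsurj : Function.Surjective s := by
    intro c
    have : 0 < Fintype.card (Fib s c) := by
      cases c
      · omega
      · omega
    obtain ⟨x⟩ := Fintype.card_pos_iff.mp this
    exact ⟨x.1, x.2⟩
  let ph : wrG s →* Perm Bool := topF hsurj
  have hker : Nat.card ph.ker = d ! * d ! := by
    rw [← h1]
    nth_rewrite 2 [h1]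
    rw [← h2, ← card_kerG s]
    apply Nat.card_congr
    exact
      { toFun := fun k => ⟨k.1.1, (mem_ker_topF hsurj k.1).mp k.2⟩
        invFun := fun x => ⟨⟨x.1, kerG_le_wrG s x.2⟩, (mem_ker_topF hsurj _).mpr x.2⟩
        left_inv := fun k => rfl
        right_inv := fun x => rfl }
  -- the image
  obtain ⟨g, hg⟩ := exists_perm_of_fibers s (fun x => !(s x)) (by
    intro c
    have key : Fintype.card (Fib (fun x => !(s x)) c) = Fintype.card (Fib s (!c)) := by
      apply Fintype.card_congr
      refine Equiv.subtypeEquivRight fun x => ?_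
      cases h : s x <;> cases c <;> simp [h]
    rw [key]
    cases c
    · simp [h1, h2]
    · simp [h1, h2])
  have hgw : g ∈ wrG s := by
    refine ⟨Equiv.boolNot, fun x => ?_⟩
    have := hg x
    simp only [Bool.not_eq_eq_eq_not] at this
    simp [this]
  have hrange : Nat.card ph.range = 2 := by
    have h3 : Nat.card ph.range ∣ 2 := by
      have := Subgroup.card_subgroup_dvd_card ph.range
      rwa [Nat.card_perm, Nat.card_eq_fintype_card (α := Bool), Fintype.card_bool] at this
    have h4 : Nat.card ph.range ≠ 1 := by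
      intro h5
      have h6 : ph.range = ⊥ := Subgroup.card_eq_one.mp h5
      have h7 : ph ⟨g, hgw⟩ ∈ ph.range := ⟨_, rfl⟩
      rw [h6, Subgroup.mem_bot] at h7
      obtain ⟨x, _⟩ := hsurj true
      have h8 := topF_spec hsurj ⟨g, hgw⟩ x
      have h9 : topF hsurj ⟨g, hgw⟩ = 1 := h7
      rw [h9] at h8
      have h10 := hg x
      simp only [Perm.one_apply] at h8
      change s (g x) = s x at h8
      rw [h8] at h10
      cases hs : s x <;> simp [hs] at h10
    have h5 : Nat.card ph.range ≤ 2 := Nat.le_of_dvd (by norm_num) h3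
    have h6 : 0 < Nat.card ph.range := Nat.card_pos
    omega
  have := Subgroup.card_mul_index ph.ker
  rw [Subgroup.index_ker, hrange, hker] at this
  rw [← this]
  ring

/-- A Hall subgroup contained in a π-subgroup equals it. -/
theorem eq_of_hall_le {G : Type*} [Group G] [Finite G] {π : Set ℕ} {H X : Subgroup G}
    (hH : IsPiHall π H) (hle : H ≤ X) (hX : ∀ p : ℕ, p.Prime → p ∣ Nat.card X → p ∈ π) : H = X := by
  have h1 : H.relIndex X = 1 := by
    by_contra hne
    obtain ⟨p, hp, hpd⟩ := Nat.exists_prime_and_dvd hne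
    have h2 : H.relIndex X ∣ Nat.card X := Subgroup.relIndex_dvd_card H X
    have h3 : H.relIndex X ∣ H.index := Subgroup.relIndex_dvd_index_of_le hle
    exact hH.2 p hp (hX p hp (hpd.trans h2)) (hpd.trans h3)
  exact le_antisymm hle (Subgroup.relIndex_eq_one.mp h1)

theorem fact_seven : (7 : ℕ)! = 5040 := by decide
theorem fact_eight : (8 : ℕ)! = 40320 := by decide

theorem isPiHall_of_card {π : Set ℕ} {K : Subgroup (Perm α)} {c i : ℕ}
    (hc : Nat.card K = c) (hi : c * i = (Fintype.card α)!)
    (h1 : ∀ p : ℕ, p.Prime → p ∣ c → p ∈ π) (h2 : ∀ p : ℕ, p.Prime → p ∈ π → ¬ p ∣ i) :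
    IsPiHall π K := by
  refine ⟨fun p hp hd => h1 p hp (hc ▸ hd), fun p hp hpπ hd => h2 p hp hpπ ?_⟩
  have h3 := Subgroup.card_mul_index K
  rw [Nat.card_perm, Nat.card_eq_fintype_card (α := α), hc, ← hi] at h3
  have hc0 : 0 < c := hc ▸ Nat.card_pos
  rwa [Nat.eq_of_mul_eq_mul_left hc0 h3] at hd

theorem isPiHall_kerG_prime {π : Set ℕ} (hP : PrimeCase π (Fintype.card α)) (s : α → Bool)
    (h1 : Fintype.card (Fib s true) = 1) : IsPiHall π (kerG s) := by
  have hsum := card_eq_add_of_bool s
  obtain ⟨hn, hr⟩ := hP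
  set b := Fintype.card (Fib s false) with hb
  have hcard := card_kerG s
  rw [h1, ← hb, Nat.factorial_one, one_mul] at hcard
  rw [h1] at hsum
  refine isPiHall_of_card (c := b !) (i := Fintype.card α) hcard ?_ ?_ ?_
  · rw [hsum, add_comm, Nat.factorial_succ]
    ring
  · intro p hp hd
    have := (Nat.Prime.dvd_factorial hp).mp hd
    exact (hr p hp (by omega)).mpr (by omega)
  · intro p hp hpπ hd
    have h2 := (Nat.prime_dvd_prime_iff_eq hp hn).mp hd
    have := (hr p hp (by omega)).mp hpπ
    omega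

theorem isPiHall_kerG_seven {π : Set ℕ} (hn : Fintype.card α = 7) (hP : TwoThree π 7) (s : α → Bool)
    (h1 : Fintype.card (Fib s true) = 3) : IsPiHall π (kerG s) := by
  have hsum := card_eq_add_of_bool s
  have h2 : Fintype.card (Fib s false) = 4 := by omega
  have hcard := card_kerG s
  rw [h1, h2] at hcard
  refine isPiHall_of_card (c := 144) (i := 35) (hcard.trans (by decide)) ?_ ?_ ?_
  · rw [hn, fact_seven]
  · intro p hp hd
    have hp2 : p ∣ 2 ^ 4 * 3 ^ 2 := by simpa using hd
    rcases (Nat.Prime.dvd_mul hp).mp hp2 with h | h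
    · have := (Nat.prime_dvd_prime_iff_eq hp Nat.prime_two).mp (hp.dvd_of_dvd_pow h)
      exact (hP p hp (by omega)).mpr (Or.inl this)
    · have := (Nat.prime_dvd_prime_iff_eq hp Nat.prime_three).mp (hp.dvd_of_dvd_pow h)
      exact (hP p hp (by omega)).mpr (Or.inr this)
  · intro p hp hpπ hd
    have hp2 : p ∣ 5 * 7 := by simpa using hd
    rcases (Nat.Prime.dvd_mul hp).mp hp2 with h | h
    · have := (Nat.prime_dvd_prime_iff_eq hp (by decide)).mp h
      have h3 := (hP p hp (by omega)).mp hpπ
      omega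
    · have := (Nat.prime_dvd_prime_iff_eq hp (by decide)).mp h
      have h3 := (hP p hp (by omega)).mp hpπ
      omega

theorem isPiHall_wrG_eight {π : Set ℕ} (hn : Fintype.card α = 8) (hP : TwoThree π 8) (s : α → Bool)
    (h1 : Fintype.card (Fib s true) = 4) (h2 : Fintype.card (Fib s false) = 4) :
    IsPiHall π (wrG s) := by
  have hcard := card_wrG s (by norm_num) h1 h2
  refine isPiHall_of_card (c := 1152) (i := 35) (hcard.trans (by decide)) ?_ ?_ ?_
  · rw [hn, fact_eight]
  · intro p hp hd
    have hp2 : p ∣ 2 ^ 7 * 3 ^ 2 := by simpa using hd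
    rcases (Nat.Prime.dvd_mul hp).mp hp2 with h | h
    · have := (Nat.prime_dvd_prime_iff_eq hp Nat.prime_two).mp (hp.dvd_of_dvd_pow h)
      exact (hP p hp (by omega)).mpr (Or.inl this)
    · have := (Nat.prime_dvd_prime_iff_eq hp Nat.prime_three).mp (hp.dvd_of_dvd_pow h)
      exact (hP p hp (by omega)).mpr (Or.inr this)
  · intro p hp hpπ hd
    have hp2 : p ∣ 5 * 7 := by simpa using hd
    rcases (Nat.Prime.dvd_mul hp).mp hp2 with h | h
    · have := (Nat.prime_dvd_prime_iff_eq hp (by decide)).mp h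
      have h3 := (hP p hp (by omega)).mp hpπ
      omega
    · have := (Nat.prime_dvd_prime_iff_eq hp (by decide)).mp h
      have h3 := (hP p hp (by omega)).mp hpπ
      omega

/-- The identification of all Hall subgroups in the non-trivial cases. -/
theorem hall_eq {π : Set ℕ} {H : Subgroup (Perm α)} (hH : IsPiHall π H)
    (hO : ¬ OneP π (Fintype.card α)) (hA : ¬ AllP π (Fintype.card α)) :
    (PrimeCase π (Fintype.card α) ∧ ∃ s : α → Bool, Fintype.card (Fib s true) = 1 ∧ H = kerG s) ∨
    (Fintype.card α = 7 ∧ TwoThree π 7 ∧ ∃ s : α → Bool, Fintype.card (Fib s true) = 3 ∧ H = kerG s) ∨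
    (Fintype.card α = 8 ∧ TwoThree π 8 ∧ ∃ s : α → Bool,
      (Fintype.card (Fib s true) = 4 ∧ Fintype.card (Fib s false) = 4) ∧ H = wrG s) := by
  rcases (hall_cls_form' H hH).2 hO hA with ⟨h1, s, h2, h3⟩ | ⟨h1, h2, s, h3, h4⟩ | ⟨h1, h2, s, h3, h4⟩
  · exact Or.inl ⟨h1, s, h2, eq_of_hall_le hH h3 (isPiHall_kerG_prime h1 s h2).1⟩
  · exact Or.inr (Or.inl ⟨h1, h2, s, h3, eq_of_hall_le hH h4 (isPiHall_kerG_seven h1 h2 s h3).1⟩)
  · exact Or.inr (Or.inr ⟨h1, h2, s, h3, eq_of_hall_le hH h4 (isPiHall_wrG_eight h1 h2 s h3.1 h3.2).1⟩)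

theorem map_conj_kerG {β : Type*} [Fintype β] [DecidableEq β] (s s' : α → β) (g : Perm α)
    (hg : ∀ x, s' (g x) = s x) : (kerG s).map (MulAut.conj g).toMonoidHom = kerG s' := by
  have hg' : ∀ x, s (g⁻¹ x) = s' x := fun x => by
    have := hg (g⁻¹ x)
    simpa using this.symm
  ext σ
  simp only [Subgroup.mem_map]
  constructor
  · rintro ⟨τ, hτ, rfl⟩ x
    simp only [MulEquiv.coe_toMonoidHom, MulAut.conj_apply, Perm.mul_apply]
    rw [hg, hτ, hg']
  · intro hσ
    refine ⟨g⁻¹ * σ * g, ?_, ?_⟩
    · intro x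
      simp only [Perm.mul_apply]
      rw [hg', hσ, hg]
    · simp [mul_assoc]

theorem map_conj_wrG {β : Type*} [Fintype β] [DecidableEq β] (s s' : α → β) (g : Perm α)
    (hg : ∀ x, s' (g x) = s x) : (wrG s).map (MulAut.conj g).toMonoidHom = wrG s' := by
  have hg' : ∀ x, s (g⁻¹ x) = s' x := fun x => by
    have := hg (g⁻¹ x)
    simpa using this.symm
  ext σ
  simp only [Subgroup.mem_map]
  constructor
  · rintro ⟨τ, ⟨t, ht⟩, rfl⟩
    refine ⟨t, fun x => ?_⟩
    simp only [MulEquiv.coe_toMonoidHom, MulAut.conj_apply, Perm.mul_apply]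
    rw [hg, ht, hg']
  · rintro ⟨t, ht⟩
    refine ⟨g⁻¹ * σ * g, ⟨t, fun x => ?_⟩, ?_⟩
    · simp only [Perm.mul_apply]
      rw [hg', ht, hg]
    · simp [mul_assoc]

/-- Two Hall subgroups in a group with only one relevant prime are conjugate. -/
theorem conj_of_unique_prime {G : Type*} [Group G] [Finite G] {π : Set ℕ} {H K : Subgroup G}
    (hH : IsPiHall π H) (hK : IsPiHall π K)
    (hq : ∀ r s : ℕ, r.Prime → s.Prime → r ∈ π → s ∈ π → r ∣ Nat.card G → s ∣ Nat.card G → r = s) :
    ∃ g : G, K = H.map (MulAut.conj g).toMonoidHom := by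
  classical
  have hHd : ∀ p : ℕ, p.Prime → p ∣ Nat.card H → p ∣ Nat.card G :=
    fun p _ hd => hd.trans (Subgroup.card_subgroup_dvd_card H)
  have hKd : ∀ p : ℕ, p.Prime → p ∣ Nat.card K → p ∣ Nat.card G :=
    fun p _ hd => hd.trans (Subgroup.card_subgroup_dvd_card K)
  by_cases h1 : Nat.card H = 1
  · -- then `K` is trivial too
    have hbot : H = ⊥ := Subgroup.card_eq_one.mp h1
    have hK1 : Nat.card K = 1 := by
      by_contra hne
      obtain ⟨p, hp, hpd⟩ := Nat.exists_prime_and_dvd hne
      have hpπ := hK.1 p hp hpd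
      apply hH.2 p hp hpπ
      rw [hbot, Subgroup.index_bot]
      exact hKd p hp hpd
    refine ⟨1, ?_⟩
    rw [Subgroup.card_eq_one.mp hK1, hbot]
    simp
  · obtain ⟨p, hp, hpd⟩ := Nat.exists_prime_and_dvd h1
    haveI : Fact p.Prime := ⟨hp⟩
    have hpπ := hH.1 p hp hpd
    have hpG := hHd p hp hpd
    have hPH : IsPGroup p H := by
      apply IsPGroup.of_card (n := (Nat.card H).primeFactorsList.length)
      apply Nat.eq_prime_pow_of_unique_prime_dvd Nat.card_pos.ne'
      intro d hd hdd
      exact hq d p hd hp (hH.1 d hd hdd) hpπ (hHd d hd hdd) hpG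
    have hK1 : Nat.card K ≠ 1 := by
      intro hne
      apply hH.2 p hp hpπ
      have hbot : K = ⊥ := Subgroup.card_eq_one.mp hne
      have h2 := hK.2 p hp hpπ
      rw [hbot, Subgroup.index_bot] at h2
      exact absurd hpG h2
    have hPK : IsPGroup p K := by
      apply IsPGroup.of_card (n := (Nat.card K).primeFactorsList.length)
      apply Nat.eq_prime_pow_of_unique_prime_dvd Nat.card_pos.ne'
      intro d hd hdd
      exact hq d p hd hp (hK.1 d hd hdd) hpπ (hKd d hd hdd) hpG
    let P : Sylow p G := hPH.toSylow (hH.2 p hp hpπ)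
    let Q : Sylow p G := hPK.toSylow (hK.2 p hp hpπ)
    obtain ⟨g, hg⟩ := MulAction.exists_smul_eq G P Q
    refine ⟨g, ?_⟩
    have h3 : ((g • P : Sylow p G) : Subgroup G) = (Q : Subgroup G) := by rw [hg]
    rw [Sylow.coe_subgroup_smul] at h3
    have h4 : (Q : Subgroup G) = K := rfl
    have h5 : (P : Subgroup G) = H := rfl
    rw [← h4, ← h3, h5]
    rfl

end Cfsg.Agent.Lib.HallSym
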