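import Mathlib
import Cfsg.Agent.Lib.HallSym.Exist
import Cfsg.Agent.Lib.Perm.HallAlt.Stab

/-!
# Hall subgroups of `A_n` against those of `S_n`

* `exists_overgroup`: if `2 ∈ π`, a Hall `π`-subgroup of `A_n` lies in a Hall `π`-subgroup of `S_n` containing
  an odd permutation.
* `lift_hall`: each Hall `π`-subgroup of `A_n` is the even part of a Hall `π`-subgroup of `S_n`.
* `conj_perm`: Hall `π`-subgroups of `S_n` are conjugate.
* `conj_alt`: Hall `π`-subgroups of `A_n` are conjugate.
-/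

set_option autoImplicit false
set_option linter.unusedSectionVars false
set_option linter.unusedVariables false

namespace Cfsg.Agent.Lib.HallSym

open Equiv Equiv.Perm Subgroup Cfsg
open scoped Nat
open Cfsg.Agent.Lib.Perm.HallAlt (AH Two Non classify setStab partStab hall_point hall_three hall_part
  exists_swap_mem_setStab setStab_le_partStab five_le_of_two_non mem_setStab)

universe u

variable {α : Type u} [Fintype α] [DecidableEq α]

theorem prime_le_of_dvd_card {G : Type*} {p : ℕ} (hp : p.Prime) (h : p ∣ Nat.card (Perm α)) :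
    p ≤ Fintype.card α := by
  rw [Nat.card_perm, Nat.card_eq_fintype_card] at h
  exact (hp.dvd_factorial).1 h

theorem prime_le_of_dvd_card_sub {Y : Subgroup (Perm α)} {p : ℕ} (hp : p.Prime) (h : p ∣ Nat.card Y) :
    p ≤ Fintype.card α :=
  prime_le_of_dvd_card (G := Unit) hp (h.trans (Subgroup.card_subgroup_dvd_card Y))

theorem prime_le_of_dvd_index {Y : Subgroup (Perm α)} {p : ℕ} (hp : p.Prime) (h : p ∣ Y.index) :
    p ≤ Fintype.card α :=
  prime_le_of_dvd_card (G := Unit) hp (h.trans (Subgroup.index_dvd_card Y))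

theorem exists_odd_mem {Y : Subgroup (Perm α)} (h : ¬ 2 ∣ Y.index) (hn : 2 ≤ Fintype.card α) :
    ∃ s ∈ Y, sign s = -1 := by
  by_contra hcon
  push Not at hcon
  have hle : Y ≤ alternatingGroup α := fun s hs => by
    rw [mem_alternatingGroup]
    exact (Int.units_eq_one_or _).resolve_right (hcon s hs)
  haveI : Nontrivial α := Fintype.one_lt_card_iff_nontrivial.mp (by omega)
  have h1 := Subgroup.relIndex_mul_index hle
  rw [alternatingGroup.index_eq_two] at h1
  exact h ⟨_, by rw [← h1, mul_comm]⟩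

theorem isPiHall_top_of_allP {π : Set ℕ} (hA : AllP π (Fintype.card α)) :
    IsPiHall π (⊤ : Subgroup (Perm α)) := by
  refine ⟨fun p hp hd => hA p hp (prime_le_of_dvd_card_sub hp hd), fun p hp _ hd => ?_⟩
  rw [Subgroup.index_top] at hd
  exact hp.one_lt.ne' (Nat.dvd_one.mp hd)

theorem eq_top_of_allP {π : Set ℕ} (hA : AllP π (Fintype.card α)) {H : Subgroup (Perm α)}
    (hH : IsPiHall π H) : H = ⊤ := by
  rw [← Subgroup.index_eq_one]
  by_contra hne
  obtain ⟨p, hp, hpd⟩ := Nat.exists_prime_and_dvd hne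
  exact hH.2 p hp (hA p hp (prime_le_of_dvd_index hp hpd)) hpd

theorem two_of_not_oneP {π : Set ℕ} {n : ℕ} (h : ¬ OneP π n) : Two n π := by
  unfold OneP at h
  push Not at h
  obtain ⟨r, s, hr, hs, hrπ, hsπ, hrn, hsn, hne⟩ := h
  exact ⟨r, s, hr, hs, hne, hrπ, hsπ, hrn, hsn⟩

theorem non_of_not_allP {π : Set ℕ} {n : ℕ} (h : ¬ AllP π n) : Non n π := by
  unfold AllP at h
  push Not at h
  obtain ⟨r, hr, hrn, hrπ⟩ := h
  exact ⟨r, hr, hrn, hrπ⟩

theorem exists_overgroup_struct {π : Set ℕ} {M : Subgroup (Perm α)} (hS : Cfsg.Agent.Lib.Perm.HallAlt.Struct π M)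
    (h5 : 5 ≤ Fintype.card α) :
    2 ∈ π ∧ ∃ Y : Subgroup (Perm α), M ≤ Y ∧ IsPiHall π Y ∧ ∃ s ∈ Y, sign s = -1 := by
  rcases hS with ⟨h1, h2, x, hx⟩ | ⟨h1, h2, Δ, hΔ, hM⟩ | ⟨h1, h2, Δ, hΔ, hM⟩
  · refine ⟨(h2 2 Nat.prime_two (by omega)).2 (by omega), setStab ({x} : Set α), ?_,
      hall_point h1 (by omega) h2 x, ?_⟩
    · intro m hm
      rw [mem_setStab]
      intro y
      simp only [Set.mem_singleton_iff]
      have := hx m hm
      constructor
      · intro h
        apply m.injective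
        rw [h, this]
      · rintro rfl
        exact this
    · obtain ⟨a, b, hab, hs⟩ := exists_swap_mem_setStab ({x} : Set α) (by omega)
      exact ⟨_, hs, sign_swap hab⟩
  · refine ⟨(h2 2 Nat.prime_two (by omega)).2 (Or.inl rfl), setStab Δ, hM, hall_three h1 h2 hΔ, ?_⟩
    obtain ⟨a, b, hab, hs⟩ := exists_swap_mem_setStab Δ (by omega)
    exact ⟨_, hs, sign_swap hab⟩
  · refine ⟨(h2 2 Nat.prime_two (by omega)).2 (Or.inl rfl), partStab Δ, hM, hall_part h1 h2 hΔ, ?_⟩
    obtain ⟨a, b, hab, hs⟩ := exists_swap_mem_setStab Δ (by omega)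
    exact ⟨_, setStab_le_partStab Δ hs, sign_swap hab⟩

/-- If `2 ∈ π`, a Hall subgroup of `A_n` lies in a Hall subgroup of `S_n` containing an odd permutation. -/
theorem exists_overgroup {π : Set ℕ} {M : Subgroup (Perm α)} (hM : AH π M) (h2 : 2 ∈ π)
    (hn : 2 ≤ Fintype.card α) :
    ∃ Y : Subgroup (Perm α), M ≤ Y ∧ IsPiHall π Y ∧ ∃ s ∈ Y, sign s = -1 := by
  by_cases hA : AllP π (Fintype.card α)
  · obtain ⟨a, b, hab⟩ := Fintype.one_lt_card_iff.mp (show 1 < Fintype.card α by omega)
    exact ⟨⊤, le_top, isPiHall_top_of_allP hA, swap a b, mem_top _, sign_swap hab⟩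
  by_cases hO : OneP π (Fintype.card α)
  · -- a Sylow `2`-subgroup
    haveI : Fact (2 : ℕ).Prime := ⟨Nat.prime_two⟩
    have hM2 : IsPGroup 2 M := by
      apply IsPGroup.of_card (n := (Nat.card M).primeFactorsList.length)
      apply Nat.eq_prime_pow_of_unique_prime_dvd Nat.card_pos.ne'
      intro d hd hdd
      exact hO d 2 hd Nat.prime_two (hM.pi d hd hdd) h2 (prime_le_of_dvd_card_sub hd hdd) hn
    obtain ⟨P, hP⟩ := hM2.exists_le_sylow
    refine ⟨P, hP, ⟨fun p hp hd => ?_, fun p hp hπ hd => ?_⟩, exists_odd_mem (P.not_dvd_index) hn⟩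
    · have h3 : IsPGroup 2 (P : Subgroup (Perm α)) := P.isPGroup'
      obtain ⟨k, hk⟩ := IsPGroup.iff_card.mp h3
      rw [hk] at hd
      have := (Nat.prime_dvd_prime_iff_eq hp Nat.prime_two).1 (hp.dvd_of_dvd_pow hd)
      rwa [this]
    · have h3 := hO p 2 hp Nat.prime_two hπ h2 (prime_le_of_dvd_index hp hd) hn
      subst h3
      exact P.not_dvd_index hd
  · have hT := two_of_not_oneP hO
    have hN := non_of_not_allP hA
    exact (exists_overgroup_struct (classify π _ α rfl M hM hT hN) (five_le_of_two_non hT hN)).2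

/-- A Hall subgroup of `A_n` is the even part of any `π`-overgroup. -/
theorem eq_inf_of_le {π : Set ℕ} {M Y : Subgroup (Perm α)} (hM : AH π M) (hle : M ≤ Y)
    (hY : ∀ p : ℕ, p.Prime → p ∣ Nat.card Y → p ∈ π) : M = Y ⊓ alternatingGroup α := by
  have hle' : M ≤ Y ⊓ alternatingGroup α := le_inf hle hM.le
  have h1 : M.relIndex (Y ⊓ alternatingGroup α) = 1 := by
    by_contra hne
    obtain ⟨p, hp, hpd⟩ := Nat.exists_prime_and_dvd hne
    have h2 : M.relIndex (Y ⊓ alternatingGroup α) ∣ Nat.card (Y ⊓ alternatingGroup α : Subgroup _) :=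
      Subgroup.relIndex_dvd_card _ _
    have h3 : p ∣ Nat.card Y := (hpd.trans h2).trans (Subgroup.card_dvd_of_le inf_le_left)
    have h4 : M.relIndex (Y ⊓ alternatingGroup α) ∣ M.relIndex (alternatingGroup α) :=
      ⟨_, (Subgroup.relIndex_mul_relIndex M _ _ hle' inf_le_right).symm⟩
    exact hM.idx p hp (hY p hp h3) (hpd.trans h4)
  exact le_antisymm hle' (Subgroup.relIndex_eq_one.mp h1)

/-- Each Hall subgroup of `A_n` is the even part of a Hall subgroup of `S_n`. -/
theorem lift_hall {π : Set ℕ} {M : Subgroup (Perm α)} (hM : AH π M) :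
    ∃ M₀ : Subgroup (Perm α), IsPiHall π M₀ ∧ M = M₀ ⊓ alternatingGroup α := by
  by_cases hn : 2 ≤ Fintype.card α
  · by_cases h2 : 2 ∈ π
    · obtain ⟨Y, hle, hY, -⟩ := exists_overgroup hM h2 hn
      exact ⟨Y, hY, eq_inf_of_le hM hle hY.1⟩
    · refine ⟨M, ⟨hM.pi, fun p hp hπ hd => ?_⟩, (inf_eq_left.mpr hM.le).symm⟩
      haveI : Nontrivial α := Fintype.one_lt_card_iff_nontrivial.mp (by omega)
      rw [← Subgroup.relIndex_mul_index hM.le, alternatingGroup.index_eq_two] at hd
      rcases (Nat.Prime.dvd_mul hp).1 hd with h | h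
      · exact hM.idx p hp hπ h
      · have := (Nat.prime_dvd_prime_iff_eq hp Nat.prime_two).1 h
        exact h2 (this ▸ hπ)
  · haveI : Subsingleton α := Fintype.card_le_one_iff_subsingleton.mp (by omega)
    refine ⟨M, ⟨hM.pi, fun p hp hπ hd => ?_⟩, (inf_eq_left.mpr hM.le).symm⟩
    rw [← Subgroup.relIndex_mul_index hM.le, alternatingGroup.index_eq_one, mul_one] at hd
    exact hM.idx p hp hπ hd

theorem conj_kerG (s t : α → Bool) (h : Fintype.card (Fib s true) = Fintype.card (Fib t true)) :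
    ∃ g : Perm α, kerG t = (kerG s).map (MulAut.conj g).toMonoidHom := by
  have h1 := card_eq_add_of_bool s
  have h2 := card_eq_add_of_bool t
  obtain ⟨g, hg⟩ := exists_perm_of_fibers s t (by
    intro c
    cases c
    · omega
    · exact h)
  exact ⟨g, (map_conj_kerG s t g hg).symm⟩

theorem conj_wrG (s t : α → Bool) (h : Fintype.card (Fib s true) = Fintype.card (Fib t true)) :
    ∃ g : Perm α, wrG t = (wrG s).map (MulAut.conj g).toMonoidHom := by
  have h1 := card_eq_add_of_bool s
  have h2 := card_eq_add_of_bool t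
  obtain ⟨g, hg⟩ := exists_perm_of_fibers s t (by
    intro c
    cases c
    · omega
    · exact h)
  exact ⟨g, (map_conj_wrG s t g hg).symm⟩

/-- Hall subgroups of `S_n` are conjugate. -/
theorem conj_perm {π : Set ℕ} {H K : Subgroup (Perm α)} (hH : IsPiHall π H) (hK : IsPiHall π K) :
    ∃ g : Perm α, K = H.map (MulAut.conj g).toMonoidHom := by
  by_cases hA : AllP π (Fintype.card α)
  · rw [eq_top_of_allP hA hH, eq_top_of_allP hA hK]
    exact ⟨1, by simp⟩
  by_cases hO : OneP π (Fintype.card α)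
  · exact conj_of_unique_prime hH hK fun r s hr hs hrπ hsπ hrd hsd =>
      hO r s hr hs hrπ hsπ (prime_le_of_dvd_card (G := Unit) hr hrd)
        (prime_le_of_dvd_card (G := Unit) hs hsd)
  · rcases hall_eq hH hO hA with ⟨hP, s, h1, rfl⟩ | ⟨h7, hP, s, h1, rfl⟩ | ⟨h8, hP, s, h1, rfl⟩ <;>
      rcases hall_eq hK hO hA with ⟨hP', t, h2, rfl⟩ | ⟨h7', hP', t, h2, rfl⟩ | ⟨h8', hP', t, h2, rfl⟩
    · exact conj_kerG s t (by omega)
    · -- `5` distinguishes the two shapes
      exfalso
      have h5 := (hP.2 5 (by norm_num) (by omega)).2 (by omega)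
      have := (hP' 5 (by norm_num) (by omega)).1 h5
      omega
    · exfalso
      rw [h8'] at hP
      exact absurd hP.1 (by norm_num)
    · exfalso
      have h5 := (hP'.2 5 (by norm_num) (by omega)).2 (by omega)
      have := (hP 5 (by norm_num) (by omega)).1 h5
      omega
    · exact conj_kerG s t (by omega)
    · omega
    · exfalso
      rw [h8] at hP'
      exact absurd hP'.1 (by norm_num)
    · omega
    · exact conj_wrG s t (by omega)

theorem subgroupOf_map_subtype_alt (M : Subgroup (alternatingGroup α)) :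
    (M.map (alternatingGroup α).subtype).subgroupOf (alternatingGroup α) = M :=
  Subgroup.comap_map_eq_self_of_injective (alternatingGroup α).subtype_injective M

/-- Passing between the two ways of looking at Hall subgroups of the alternating group. -/
theorem isPiHall_iff_AH {π : Set ℕ} (M : Subgroup (alternatingGroup α)) :
    IsPiHall π M ↔ AH π (M.map (alternatingGroup α).subtype) := by
  have h1 : Nat.card (M.map (alternatingGroup α).subtype) = Nat.card M :=
    Subgroup.card_map_of_injective (alternatingGroup α).subtype_injective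
  have h2 : (M.map (alternatingGroup α).subtype).relIndex (alternatingGroup α) = M.index := by
    rw [Subgroup.relIndex, subgroupOf_map_subtype_alt]
  constructor
  · rintro ⟨h3, h4⟩
    refine ⟨Subgroup.map_subtype_le M, ?_, ?_⟩
    · rwa [h1]
    · rwa [h2]
  · rintro ⟨-, h3, h4⟩
    constructor
    · rwa [h1] at h3
    · rwa [h2] at h4

theorem subgroupOf_isPiHall {π : Set ℕ} {M₀ : Subgroup (Perm α)} (h : IsPiHall π M₀) :
    IsPiHall π (M₀.subgroupOf (alternatingGroup α)) := by
  rw [isPiHall_iff_AH, Subgroup.subgroupOf_map_subtype]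
  exact Cfsg.Agent.Lib.Perm.HallAlt.AH.of_hall h

/-- the intersection statement -/
theorem isPiHall_alt_iff {π : Set ℕ} (M : Subgroup (alternatingGroup α)) :
    IsPiHall π M ↔ ∃ M₀ : Subgroup (Perm α), IsPiHall π M₀ ∧ M = M₀.subgroupOf (alternatingGroup α) := by
  constructor
  · intro h
    obtain ⟨M₀, h1, h2⟩ := lift_hall ((isPiHall_iff_AH M).mp h)
    refine ⟨M₀, h1, ?_⟩
    apply Subgroup.map_injective (alternatingGroup α).subtype_injective
    rw [Subgroup.subgroupOf_map_subtype, h2]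
  · rintro ⟨M₀, h1, rfl⟩
    exact subgroupOf_isPiHall h1

/-- Hall subgroups of `A_n` are conjugate. -/
theorem conj_alt {π : Set ℕ} {M₁ M₂ : Subgroup (alternatingGroup α)} (h₁ : IsPiHall π M₁)
    (h₂ : IsPiHall π M₂) : ∃ g : alternatingGroup α, M₂ = M₁.map (MulAut.conj g).toMonoidHom := by
  by_cases hO : OneP π (Fintype.card α)
  · have hd : ∀ r : ℕ, r ∣ Nat.card (alternatingGroup α) → r ∣ Nat.card (Perm α) :=
      fun r h => h.trans (Subgroup.card_subgroup_dvd_card _)
    exact conj_of_unique_prime h₁ h₂ fun r s hr hs hrπ hsπ hrd hsd =>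
      hO r s hr hs hrπ hsπ (prime_le_of_dvd_card (G := Unit) hr (hd r hrd))
        (prime_le_of_dvd_card (G := Unit) hs (hd s hsd))
  · have hT := two_of_not_oneP hO
    have hn : 2 ≤ Fintype.card α := by
      obtain ⟨r, s, hr, -, -, -, -, hrn, -⟩ := hT
      exact hr.two_le.trans hrn
    have hA₁ := (isPiHall_iff_AH M₁).mp h₁
    have hA₂ := (isPiHall_iff_AH M₂).mp h₂
    have h2 : 2 ∈ π := by
      by_contra h2
      have hN : Non (Fintype.card α) π := ⟨2, Nat.prime_two, hn, h2⟩
      exact h2 (exists_overgroup_struct (classify π _ α rfl _ hA₁ hT hN)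
        (five_le_of_two_non hT hN)).1
    obtain ⟨Y₁, hle₁, hY₁, s, hsY, hs⟩ := exists_overgroup hA₁ h2 hn
    obtain ⟨Y₂, hle₂, hY₂, -⟩ := exists_overgroup hA₂ h2 hn
    have e₁ := eq_inf_of_le hA₁ hle₁ hY₁.1
    have e₂ := eq_inf_of_le hA₂ hle₂ hY₂.1
    obtain ⟨g, hg⟩ := conj_perm hY₁ hY₂
    -- an even conjugating element
    obtain ⟨g', hg'A, hg'⟩ : ∃ g' ∈ alternatingGroup α, ∀ x, x ∈ Y₂ ↔ g'⁻¹ * x * g' ∈ Y₁ := by
      have base : ∀ x, x ∈ Y₂ ↔ g⁻¹ * x * g ∈ Y₁ := by
        intro x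
        rw [hg, Subgroup.mem_map]
        constructor
        · rintro ⟨y, hy, rfl⟩
          simpa [mul_assoc] using hy
        · intro h
          exact ⟨_, h, by simp [mul_assoc]⟩
      by_cases hsg : sign g = 1
      · exact ⟨g, mem_alternatingGroup.mpr hsg, base⟩
      · have hsg' : sign g = -1 := (Int.units_eq_one_or _).resolve_left hsg
        refine ⟨g * s, ?_, fun x => ?_⟩
        · rw [mem_alternatingGroup, Perm.sign_mul, hsg', hs]
          rfl
        · rw [base]
          have : (g * s)⁻¹ * x * (g * s) = s⁻¹ * (g⁻¹ * x * g) * s := by group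
          rw [this]
          constructor
          · intro h
            exact Y₁.mul_mem (Y₁.mul_mem (Y₁.inv_mem hsY) h) hsY
          · intro h
            have h3 := Y₁.mul_mem (Y₁.mul_mem hsY h) (Y₁.inv_mem hsY)
            have h4 : s * (s⁻¹ * (g⁻¹ * x * g) * s) * s⁻¹ = g⁻¹ * x * g := by group
            rwa [h4] at h3
    refine ⟨⟨g', hg'A⟩, ?_⟩
    have memM₁ : ∀ y : alternatingGroup α, y ∈ M₁ ↔ (y : Perm α) ∈ Y₁ := by
      intro y
      have : y ∈ M₁ ↔ (y : Perm α) ∈ M₁.map (alternatingGroup α).subtype :=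
        (Subgroup.mem_map_iff_mem (alternatingGroup α).subtype_injective).symm
      rw [this, e₁]
      exact ⟨fun h => h.1, fun h => ⟨h, y.2⟩⟩
    have memM₂ : ∀ y : alternatingGroup α, y ∈ M₂ ↔ (y : Perm α) ∈ Y₂ := by
      intro y
      have : y ∈ M₂ ↔ (y : Perm α) ∈ M₂.map (alternatingGroup α).subtype :=
        (Subgroup.mem_map_iff_mem (alternatingGroup α).subtype_injective).symm
      rw [this, e₂]
      exact ⟨fun h => h.1, fun h => ⟨h, y.2⟩⟩
    ext x
    rw [memM₂, hg', Subgroup.mem_map]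
    constructor
    · intro h
      refine ⟨⟨g', hg'A⟩⁻¹ * x * ⟨g', hg'A⟩, (memM₁ _).mpr h, ?_⟩
      simp [mul_assoc]
    · rintro ⟨y, hy, rfl⟩
      have := (memM₁ y).mp hy
      simpa [mul_assoc] using this

end Cfsg.Agent.Lib.HallSym
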