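import Mathlib
import Cfsg.Agent.Lib.HallSym.Lift

/-!
# The full Sylow analogue for alternating groups
-/

set_option autoImplicit false
set_option linter.unusedSectionVars false
set_option linter.unusedVariables false

namespace Cfsg.Agent.Lib.HallSym

open Equiv Equiv.Perm Subgroup Cfsg
open scoped Nat
open Cfsg.Agent.Lib.Perm.HallAlt (AH Two Non classify Struct five_le_of_two_non mem_setStab setStab)

section general

variable {G : Type*} [Group G] [Finite G] {π : Set ℕ}

theorem exists_maximal_pi {K : Subgroup G} (hK : IsPiSubgroup π K) :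
    ∃ M : Subgroup G, K ≤ M ∧ Maximal (IsPiSubgroup π) M := by
  obtain ⟨M, hM, hm⟩ := Set.Finite.exists_le_maximal (s := {H : Subgroup G | IsPiSubgroup π H})
    (Set.toFinite _) hK
  exact ⟨M, hM, hm⟩

theorem isPi_of_pgroup {p : ℕ} (hp : p.Prime) (hπ : p ∈ π) {P : Subgroup G} (h : IsPGroup p P) :
    IsPiSubgroup π P := by
  intro q hq hd
  haveI : Fact p.Prime := ⟨hp⟩
  obtain ⟨k, hk⟩ := IsPGroup.iff_card.mp h
  rw [hk] at hd
  have := (Nat.prime_dvd_prime_iff_eq hq hp).1 (hq.dvd_of_dvd_pow hd)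
  rwa [this]

theorem index_map_conj (H : Subgroup G) (g : G) : (H.map (MulAut.conj g).toMonoidHom).index = H.index :=
  Subgroup.index_map_equiv H (MulAut.conj g)

/-- Under `D_π`, maximal `π`-subgroups are Hall subgroups. -/
theorem isPiHall_of_maximal_of_D (hD : IsDPiGroup π G) {H : Subgroup G}
    (hH : Maximal (IsPiSubgroup π) H) : IsPiHall π H := by
  refine ⟨hH.prop, fun p hp hπ hd => ?_⟩
  haveI : Fact p.Prime := ⟨hp⟩
  obtain ⟨P⟩ : Nonempty (Sylow p G) := inferInstance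
  obtain ⟨M, hPM, hM⟩ := exists_maximal_pi (isPi_of_pgroup hp hπ P.isPGroup')
  obtain ⟨g, hg⟩ := hD H M hH hM
  have h1 : M.index = H.index := by rw [hg]; exact index_map_conj H g
  have h2 : M.index ∣ (P : Subgroup G).index := Subgroup.index_dvd_of_le hPM
  exact P.not_dvd_index (by rw [h1] at h2; exact hd.trans h2)

theorem isPiHall_of_maximal_unique
    (hq : ∀ r s : ℕ, r.Prime → s.Prime → r ∈ π → s ∈ π → r ∣ Nat.card G → s ∣ Nat.card G → r = s)
    {H : Subgroup G} (hH : Maximal (IsPiSubgroup π) H) : IsPiHall π H := by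
  refine ⟨hH.prop, fun p hp hπ hd => ?_⟩
  haveI : Fact p.Prime := ⟨hp⟩
  have hpG : p ∣ Nat.card G := hd.trans (Subgroup.index_dvd_card H)
  have hHp : IsPGroup p H := by
    apply IsPGroup.of_card (n := (Nat.card H).primeFactorsList.length)
    apply Nat.eq_prime_pow_of_unique_prime_dvd Nat.card_pos.ne'
    intro d hd' hdd
    exact hq d p hd' hp (hH.prop d hd' hdd) hπ (hdd.trans (Subgroup.card_subgroup_dvd_card H)) hpG
  obtain ⟨P, hP⟩ := hHp.exists_le_sylow
  have h1 : (P : Subgroup G) ≤ H := hH.le_of_ge (isPi_of_pgroup hp hπ P.isPGroup') hP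
  have h2 : H = P := le_antisymm hP h1
  rw [h2] at hd
  exact P.not_dvd_index hd

theorem dPi_of_unique
    (hq : ∀ r s : ℕ, r.Prime → s.Prime → r ∈ π → s ∈ π → r ∣ Nat.card G → s ∣ Nat.card G → r = s) :
    IsDPiGroup π G := fun H K hH hK =>
  conj_of_unique_prime (isPiHall_of_maximal_unique hq hH) (isPiHall_of_maximal_unique hq hK) hq

theorem dPi_of_all (h : ∀ r : ℕ, r.Prime → r ∣ Nat.card G → r ∈ π) : IsDPiGroup π G := fun H K hH hK => by
  have htop : IsPiSubgroup π (⊤ : Subgroup G) := fun p hp hd =>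
    h p hp (hd.trans (Subgroup.card_subgroup_dvd_card _))
  have h1 : H = ⊤ := top_le_iff.mp (hH.le_of_ge htop le_top)
  have h2 : K = ⊤ := top_le_iff.mp (hK.le_of_ge htop le_top)
  exact ⟨1, by rw [h1, h2]; simp⟩

end general

universe u

variable {α : Type u} [Fintype α] [DecidableEq α] {π : Set ℕ}

/-- The `π`-subgroups of `A_n`, under `D_π`, lie in one with the structure of `classify`. -/
theorem struct_of_le (hD : IsDPiGroup π (alternatingGroup α)) (hT : Two (Fintype.card α) π)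
    (hN : Non (Fintype.card α) π) {K : Subgroup (Perm α)} (hKA : K ≤ alternatingGroup α)
    (hK : ∀ p : ℕ, p.Prime → p ∣ Nat.card K → p ∈ π) :
    ∃ M : Subgroup (Perm α), K ≤ M ∧ Struct π M := by
  have h1 : IsPiSubgroup π (K.subgroupOf (alternatingGroup α)) := by
    intro p hp hd
    apply hK p hp
    rwa [Nat.card_congr (Subgroup.subgroupOfEquivOfLe hKA).toEquiv] at hd
  obtain ⟨M, hM, hMm⟩ := exists_maximal_pi h1
  have hH := isPiHall_of_maximal_of_D hD hMm
  refine ⟨M.map (alternatingGroup α).subtype, ?_,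
    classify π _ α rfl _ ((isPiHall_iff_AH M).mp hH) hT hN⟩
  intro x hx
  exact ⟨⟨x, hKA hx⟩, hM (Subgroup.mem_subgroupOf.mpr hx), rfl⟩

theorem swap_mem_kerG {β : Type*} [Fintype β] [DecidableEq β] (s : α → β) {a b : α} (h : s a = s b) :
    swap a b ∈ kerG s := by
  intro x
  rcases eq_or_ne x a with rfl | h1
  · rw [swap_apply_left]; exact h.symm
  · rcases eq_or_ne x b with rfl | h2
    · rw [swap_apply_right]; exact h
    · rw [swap_apply_of_ne_of_ne h1 h2]

theorem exists_other_of_card {s : α → Bool} {b : Bool} (h : 2 ≤ Fintype.card (Fib s b)) (x : Fib s b) :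
    ∃ y : Fib s b, y ≠ x := by
  haveI : Nontrivial (Fib s b) := Fintype.one_lt_card_iff_nontrivial.mp (by omega)
  exact exists_ne x

/-- The prime case: a `π`-subgroup of `A_n` without fixed points. -/
theorem no_point (hn : 5 ≤ Fintype.card α) (hr : ∀ r : ℕ, r.Prime → r ≤ Fintype.card α → (r ∈ π ↔ r < Fintype.card α)) :
    ∃ K : Subgroup (Perm α), K ≤ alternatingGroup α ∧ (∀ p : ℕ, p.Prime → p ∣ Nat.card K → p ∈ π) ∧
      ∀ x : α, ∃ m ∈ K, m x ≠ x := by
  obtain ⟨s, hs⟩ := exists_bool_card (α := α) 3 (by omega)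
  have hsum := card_eq_add_of_bool s
  have hF : 2 ≤ Fintype.card (Fib s false) := by omega
  have hT : 2 ≤ Fintype.card (Fib s true) := by omega
  refine ⟨kerG s ⊓ alternatingGroup α, inf_le_right, fun p hp hd => ?_, fun x => ?_⟩
  · have h1 := card_dvd_of_le_ker (K := kerG s ⊓ alternatingGroup α) (f := s) inf_le_left
    rw [Fintype.prod_bool] at h1
    have h2 := hd.trans h1
    rw [hp.dvd_mul] at h2
    have h3 : p ≤ 3 ∨ p ≤ Fintype.card α - 3 := by
      rcases h2 with h2 | h2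
      · left
        have := h2.trans (Subgroup.card_subgroup_dvd_card _)
        rw [card_fib, hs] at this
        exact (hp.dvd_factorial).1 this
      · right
        have := h2.trans (Subgroup.card_subgroup_dvd_card _)
        rw [card_fib] at this
        have h4 := (hp.dvd_factorial).1 this
        omega
    refine (hr p hp (by omega)).2 (by omega)
  · have hall : ∀ b : Bool, 2 ≤ Fintype.card (Fib s b) := by
      intro b
      cases b
      · exact hF
      · exact hT
    obtain ⟨⟨x', hx'⟩, hne⟩ := exists_other_of_card (hall (s x)) ⟨x, rfl⟩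
    have hne' : x' ≠ x := fun h => hne (Subtype.ext h)
    obtain ⟨c⟩ : Nonempty (Fib s (!(s x))) :=
      Fintype.card_pos_iff.mp (by have := hall (!(s x)); omega)
    obtain ⟨⟨d, hd⟩, hdc⟩ := exists_other_of_card (hall (!(s x))) c
    obtain ⟨c, hc⟩ := c
    have hcd : d ≠ c := fun h => hdc (Subtype.ext h)
    have hxc : x ≠ c := by
      rintro rfl
      simp at hc
    have hxd : x ≠ d := by
      rintro rfl
      simp at hd
    refine ⟨swap x x' * swap c d, Subgroup.mem_inf.mpr ⟨(kerG s).mul_mem (swap_mem_kerG s hx'.symm)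
      (swap_mem_kerG s (hc.trans hd.symm)), ?_⟩, ?_⟩
    · rw [mem_alternatingGroup, Perm.sign_mul, sign_swap hne'.symm, sign_swap hcd.symm]
      rfl
    · rw [Perm.mul_apply, swap_apply_of_ne_of_ne hxc hxd, swap_apply_left]
      exact hne'

section seven

/-- the blocks `012 | 345 | 6` -/
def f7 : Fin 7 → Fin 3 := ![0, 0, 0, 1, 1, 1, 2]

theorem f7_surj : Function.Surjective f7 := by decide

def c71 : Perm (Fin 7) := swap 0 1 * swap 1 2
def c72 : Perm (Fin 7) := swap 3 4 * swap 4 5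
def b7 : Perm (Fin 7) := swap 0 3 * swap 1 4 * swap 2 5 * swap 0 1

theorem no_three_aux : ∀ D : Finset (Fin 7), (∀ x, c71 x ∈ D ↔ x ∈ D) → (∀ x, c72 x ∈ D ↔ x ∈ D) →
    (∀ x, b7 x ∈ D ↔ x ∈ D) → D.card ≠ 3 := by
  decide +kernel

theorem card_fib_f7 (b : Fin 3) : Fintype.card (Fib f7 b) ≤ 3 := by
  revert b
  decide

theorem dvd_six_of_le_three {k : ℕ} (h : k ≤ 3) : k ! ∣ 6 :=
  Nat.factorial_dvd_factorial h

/-- a `{2,3}`-subgroup of `A_7` with no invariant `3`-set -/
theorem no_three : ∃ K : Subgroup (Perm (Fin 7)), K ≤ alternatingGroup (Fin 7) ∧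
    (∀ p : ℕ, p.Prime → p ∣ Nat.card K → p = 2 ∨ p = 3) ∧
      ∀ Δ : Set (Fin 7), K ≤ setStab Δ → Δ.ncard ≠ 3 := by
  refine ⟨wrG f7 ⊓ alternatingGroup (Fin 7), inf_le_right, fun p hp hd => ?_, fun Δ hΔ hc => ?_⟩
  · have h1 := card_dvd_of_le_wr (K := wrG f7 ⊓ alternatingGroup (Fin 7)) f7_surj inf_le_left
    have h2 : ∀ b : Fin 3, Nat.card (Yim (wrG f7 ⊓ alternatingGroup (Fin 7)) f7 b) ∣ 6 := by
      intro b
      have := Subgroup.card_subgroup_dvd_card (Yim (wrG f7 ⊓ alternatingGroup (Fin 7)) f7 b)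
      rw [card_fib] at this
      exact this.trans (Nat.factorial_dvd_factorial (card_fib_f7 b))
    rw [Fin.prod_univ_three, Fintype.card_fin] at h1
    have h3 : Nat.card (wrG f7 ⊓ alternatingGroup (Fin 7) : Subgroup _) ∣ 2 ^ 4 * 3 ^ 4 := by
      refine h1.trans ?_
      have := Nat.mul_dvd_mul (Nat.mul_dvd_mul (Nat.mul_dvd_mul (h2 0) (h2 1)) (h2 2))
        (show (3 : ℕ)! ∣ 6 from by decide)
      exact this
    exact Cfsg.Agent.Lib.Perm.HallAlt.prime_dvd_two_three hp (hd.trans h3)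
  · classical
    have hmem : ∀ m : Perm (Fin 7), (∃ t : Perm (Fin 3), ∀ x, f7 (m x) = t (f7 x)) → sign m = 1 →
        ∀ x, m x ∈ Δ ↔ x ∈ Δ := by
      intro m hm hs
      exact mem_setStab.mp (hΔ (Subgroup.mem_inf.mpr ⟨hm, mem_alternatingGroup.mpr hs⟩))
    have h1 := hmem c71 ⟨1, by decide⟩ (by decide +kernel)
    have h2 := hmem c72 ⟨1, by decide⟩ (by decide +kernel)
    have h3 := hmem b7 ⟨swap 0 1, by decide⟩ (by decide +kernel)
    refine no_three_aux Δ.toFinset ?_ ?_ ?_ ?_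
    · simpa using h1
    · simpa using h2
    · simpa using h3
    · rw [← Set.ncard_eq_toFinset_card']
      exact hc

end seven

section eight

/-- the blocks `012 | 345 | 67` -/
def f8 : Fin 8 → Fin 3 := ![0, 0, 0, 1, 1, 1, 2, 2]

def c81 : Perm (Fin 8) := swap 0 1 * swap 1 2
def c82 : Perm (Fin 8) := swap 3 4 * swap 4 5
def d8 : Perm (Fin 8) := swap 0 1 * swap 6 7

theorem no_four_aux : ∀ D : Finset (Fin 8), (∀ x, c81 x ∈ D ↔ x ∈ D) → (∀ x, c82 x ∈ D ↔ x ∈ D) →
    (∀ x, d8 x ∈ D ↔ x ∈ D) → D.card ≠ 4 := by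
  decide +kernel

theorem card_fib_f8 (b : Fin 3) : Fintype.card (Fib f8 b) ≤ 3 := by
  revert b
  decide

/-- a `{2,3}`-subgroup of `A_8` with no invariant partition `4 | 4` -/
theorem no_four : ∃ K : Subgroup (Perm (Fin 8)), K ≤ alternatingGroup (Fin 8) ∧
    (∀ p : ℕ, p.Prime → p ∣ Nat.card K → p = 2 ∨ p = 3) ∧
      ∀ Δ : Set (Fin 8), (∀ m ∈ K, (∀ x, m x ∈ Δ ↔ x ∈ Δ) ∨ (∀ x, m x ∈ Δ ↔ x ∉ Δ)) → Δ.ncard ≠ 4 := by
  refine ⟨kerG f8 ⊓ alternatingGroup (Fin 8), inf_le_right, fun p hp hd => ?_, fun Δ hΔ hc => ?_⟩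
  · have h1 := card_dvd_of_le_ker (K := kerG f8 ⊓ alternatingGroup (Fin 8)) (f := f8) inf_le_left
    have h2 : ∀ b : Fin 3, Nat.card (Yim (kerG f8 ⊓ alternatingGroup (Fin 8)) f8 b) ∣ 6 := by
      intro b
      have := Subgroup.card_subgroup_dvd_card (Yim (kerG f8 ⊓ alternatingGroup (Fin 8)) f8 b)
      rw [card_fib] at this
      exact this.trans (Nat.factorial_dvd_factorial (card_fib_f8 b))
    rw [Fin.prod_univ_three] at h1
    have h3 : Nat.card (kerG f8 ⊓ alternatingGroup (Fin 8) : Subgroup _) ∣ 2 ^ 3 * 3 ^ 3 := by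
      refine h1.trans ?_
      have := Nat.mul_dvd_mul (Nat.mul_dvd_mul (h2 0) (h2 1)) (h2 2)
      exact this
    exact Cfsg.Agent.Lib.Perm.HallAlt.prime_dvd_two_three hp (hd.trans h3)
  · classical
    have hmem : ∀ m : Perm (Fin 8), (∀ x, f8 (m x) = f8 x) → sign m = 1 → m 2 = 2 ∨ m 3 = 3 →
        ∀ x, m x ∈ Δ ↔ x ∈ Δ := by
      intro m hm hs hfix
      rcases hΔ m (Subgroup.mem_inf.mpr ⟨hm, mem_alternatingGroup.mpr hs⟩) with h | h
      · exact h
      · exfalso
        rcases hfix with h5 | h5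
        · have := h 2
          rw [h5] at this
          tauto
        · have := h 3
          rw [h5] at this
          tauto
    have h1 := hmem c81 (by decide) (by decide +kernel) (Or.inr (by decide))
    have h2 := hmem c82 (by decide) (by decide +kernel) (Or.inl (by decide))
    have h3 := hmem d8 (by decide) (by decide +kernel) (Or.inl (by decide))
    refine no_four_aux Δ.toFinset ?_ ?_ ?_ ?_
    · simpa using h1
    · simpa using h2
    · simpa using h3
    · rw [← Set.ncard_eq_toFinset_card']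
      exact hc

end eight

/-- The hard direction of the Sylow analogue. -/
theorem no_D {n : ℕ} (hD : IsDPiGroup π (alternatingGroup (Fin n))) (hT : Two n π) (hN : Non n π) : False := by
  have h5 := five_le_of_two_non hT hN
  have hc : Fintype.card (Fin n) = n := Fintype.card_fin n
  have hT' : Two (Fintype.card (Fin n)) π := by rwa [hc]
  have hN' : Non (Fintype.card (Fin n)) π := by rwa [hc]
  obtain ⟨M, -, hM⟩ := struct_of_le hD hT' hN' (K := ⊥) bot_le (by
    intro p hp hd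
    rw [Subgroup.card_bot] at hd
    exact absurd (Nat.dvd_one.mp hd) hp.one_lt.ne')
  rcases hM with ⟨h1, h2, -⟩ | ⟨h1, h2, -⟩ | ⟨h1, h2, -⟩
  · obtain ⟨K, hKA, hKπ, hK⟩ := no_point (by omega) h2
    obtain ⟨M', hle, hM'⟩ := struct_of_le hD hT' hN' hKA hKπ
    rcases hM' with ⟨-, -, x, hx⟩ | ⟨h3, h4, -⟩ | ⟨h3, h4, -⟩
    · obtain ⟨m, hm, hne⟩ := hK x
      exact hne (hx m (hle hm))
    · rw [h3] at h2 h4
      have := (h4 5 (by norm_num) (by omega)).1 ((h2 5 (by norm_num) (by omega)).2 (by omega))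
      omega
    · rw [h3] at h1
      exact absurd h1 (by norm_num)
  · rw [hc] at h1
    subst h1
    obtain ⟨K, hKA, hKπ, hK⟩ := no_three
    have hKπ' : ∀ p : ℕ, p.Prime → p ∣ Nat.card K → p ∈ π := by
      intro p hp hd
      have h3 := hKπ p hp hd
      refine (h2 p hp ?_).2 h3
      rw [hc]
      rcases h3 with rfl | rfl <;> omega
    obtain ⟨M', hle, hM'⟩ := struct_of_le hD hT' hN' hKA hKπ'
    rcases hM' with ⟨h3, h4, -⟩ | ⟨-, -, Δ, hΔ, hM'⟩ | ⟨h3, -⟩
    · rw [hc] at h2 h4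
      have := (h2 5 (by norm_num) (by omega)).1 ((h4 5 (by norm_num) (by omega)).2 (by omega))
      omega
    · exact hK Δ (hle.trans hM') hΔ
    · rw [hc] at h3
      omega
  · rw [hc] at h1
    subst h1
    obtain ⟨K, hKA, hKπ, hK⟩ := no_four
    have hKπ' : ∀ p : ℕ, p.Prime → p ∣ Nat.card K → p ∈ π := by
      intro p hp hd
      have h3 := hKπ p hp hd
      refine (h2 p hp ?_).2 h3
      rw [hc]
      rcases h3 with rfl | rfl <;> omega
    obtain ⟨M', hle, hM'⟩ := struct_of_le hD hT' hN' hKA hKπ'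
    rcases hM' with ⟨h3, -⟩ | ⟨h3, -⟩ | ⟨-, -, Δ, hΔ, hM'⟩
    · rw [hc] at h3
      exact absurd h3 (by norm_num)
    · rw [hc] at h3
      omega
    · exact hK Δ (fun m hm => hM' m (hle hm)) hΔ

/-- the Sylow analogue -/
theorem dPi_alt_iff (n : ℕ) (π : Set ℕ) :
    IsDPiGroup π (alternatingGroup (Fin n)) ↔
      ((∀ r s : ℕ, r.Prime → s.Prime → r ∈ π → s ∈ π → r ∣ Nat.card (alternatingGroup (Fin n)) →
          s ∣ Nat.card (alternatingGroup (Fin n)) → r = s) ∨
        ∀ r : ℕ, r.Prime → r ∣ Nat.card (alternatingGroup (Fin n)) → r ∈ π) := by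
  constructor
  · intro hD
    by_contra hcon
    push Not at hcon
    obtain ⟨⟨r, s, hr, hs, hrπ, hsπ, hrd, hsd, hne⟩, t, ht, htd, htπ⟩ := hcon
    have hle : ∀ q : ℕ, q.Prime → q ∣ Nat.card (alternatingGroup (Fin n)) → q ≤ n := by
      intro q hq hd
      have := prime_le_of_dvd_card (G := Unit) hq (hd.trans (Subgroup.card_subgroup_dvd_card _))
      rwa [Fintype.card_fin] at this
    exact no_D hD ⟨r, s, hr, hs, hne, hrπ, hsπ, hle r hr hrd, hle s hs hsd⟩ ⟨t, ht, hle t ht htd, htπ⟩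
  · rintro (h | h)
    · exact dPi_of_unique h
    · exact dPi_of_all h

end Cfsg.Agent.Lib.HallSym
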